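import Mathlib
import Cfsg.Prelude.Def_Blocks
import Cfsg.Agent.S0907
import Cfsg.Agent.S4653

set_option autoImplicit false

namespace Cfsg.Agent.Lib.Helper5

open scoped ComplexConjugate

universe u

/-- A×B-type lemma: an element `n` with `n ^ r = 1`, `r` prime to `p`, normalizing a finite
`p`-subgroup `P` and centralizing `B ≤ P` and `C_P(B)`, centralizes `P`. -/
theorem pprime_centralizes5 {G : Type u} [Group G] {p : ℕ} [Fact p.Prime] (P B : Subgroup G)
    [Finite P] (hP : IsPGroup p P) (hBP : B ≤ P) (n : G) (hnP : ∀ x ∈ P, n * x * n⁻¹ ∈ P)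
    (r : ℕ) (hr : n ^ r = 1) (hrp : r.Coprime p)
    (hB : ∀ b ∈ B, n * b = b * n)
    (hCB : ∀ x ∈ P, (∀ b ∈ B, b * x = x * b) → n * x = x * n) :
    ∀ x ∈ P, n * x = x * n := by
  classical
  by_contra hcon
  push Not at hcon
  obtain ⟨x₀, hx₀P, hx₀⟩ := hcon
  obtain ⟨R', hR'⟩ : ∃ R' : Subgroup P,
      R' = (Subgroup.centralizer ({n} : Set G)).subgroupOf P := ⟨_, rfl⟩
  have hmem : ∀ y : P, y ∈ R' ↔ n * (y : G) = (y : G) * n := by
    intro y
    rw [hR', Subgroup.mem_subgroupOf, Subgroup.mem_centralizer_iff]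
    constructor
    · intro h
      exact h n rfl
    · intro h z hz
      rw [Set.mem_singleton_iff] at hz
      rw [hz]
      exact h
  have hR'top : R' < ⊤ := by
    rw [lt_top_iff_ne_top]
    intro h
    have h1 : (⟨x₀, hx₀P⟩ : P) ∈ R' := by rw [h]; exact Subgroup.mem_top _
    exact hx₀ ((hmem _).mp h1)
  haveI : Group.IsNilpotent P := hP.isNilpotent
  have hlt : R' < Subgroup.normalizer (R' : Set P) :=
    Group.normalizerCondition_of_isNilpotent R' hR'top
  obtain ⟨s', hs'N, hs'R⟩ := SetLike.exists_of_lt hlt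
  rw [Subgroup.mem_normalizer_iff] at hs'N
  have hnorm : ∀ y : G, y ∈ P → n * y = y * n →
      n * ((s' : G) * y * (s' : G)⁻¹) = (s' : G) * y * (s' : G)⁻¹ * n := by
    intro y hyP hy
    have h1 : (⟨y, hyP⟩ : P) ∈ R' := (hmem _).mpr hy
    have h2 := (hs'N ⟨y, hyP⟩).mp h1
    have h3 := (hmem _).mp h2
    exact h3
  obtain ⟨c, hc⟩ : ∃ c : G, c = (s' : G)⁻¹ * (n * (s' : G) * n⁻¹) := ⟨_, rfl⟩
  have hcP : c ∈ P := by
    rw [hc]
    exact P.mul_mem (P.inv_mem s'.2) (hnP _ s'.2)
  have hcR : ∀ y : G, y ∈ P → n * y = y * n → y * c = c * y := by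
    intro y hyP hy
    have h1 := hnorm y hyP hy
    rw [hc]
    have h2 : n⁻¹ * y = y * n⁻¹ := by
      calc n⁻¹ * y = n⁻¹ * (y * n) * n⁻¹ := by group
        _ = n⁻¹ * (n * y) * n⁻¹ := by rw [hy]
        _ = y * n⁻¹ := by group
    calc y * ((s' : G)⁻¹ * (n * (s' : G) * n⁻¹))
        = (s' : G)⁻¹ * ((s' : G) * y * (s' : G)⁻¹ * n) * (s' : G) * n⁻¹ := by group
      _ = (s' : G)⁻¹ * (n * ((s' : G) * y * (s' : G)⁻¹)) * (s' : G) * n⁻¹ := by rw [h1]
      _ = (s' : G)⁻¹ * (n * (s' : G)) * (y * n⁻¹) := by group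
      _ = (s' : G)⁻¹ * (n * (s' : G)) * (n⁻¹ * y) := by rw [h2]
      _ = (s' : G)⁻¹ * (n * (s' : G) * n⁻¹) * y := by group
  have hnc : n * c = c * n := by
    apply hCB c hcP
    intro b hb
    exact hcR b (hBP hb) (hB b hb)
  have hcn : c * n = (s' : G)⁻¹ * n * (s' : G)⁻¹⁻¹ := by rw [hc]; group
  have hpow : (c * n) ^ r = 1 := by
    rw [hcn, conj_pow, hr]
    group
  have hcr : c ^ r = 1 := by
    have hcomm : Commute c n := hnc.symm
    rw [hcomm.mul_pow, hr, mul_one] at hpow
    exact hpow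
  have hc1 : c = 1 := by
    obtain ⟨j, hj⟩ := hP ⟨c, hcP⟩
    have hj' : c ^ p ^ j = 1 := by
      have h := congrArg (Subtype.val) hj
      simpa using h
    have h1 : orderOf c ∣ r := orderOf_dvd_of_pow_eq_one hcr
    have h2 : orderOf c ∣ p ^ j := orderOf_dvd_of_pow_eq_one hj'
    have h3 : orderOf c ∣ Nat.gcd r (p ^ j) := Nat.dvd_gcd h1 h2
    have h4 : Nat.gcd r (p ^ j) = 1 := Nat.Coprime.pow_right j hrp
    rw [h4, Nat.dvd_one] at h3
    exact orderOf_eq_one_iff.mp h3
  apply hs'R
  rw [hmem]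
  rw [hc1] at hc
  have h5 : n * (s' : G) * n⁻¹ = (s' : G) := (inv_mul_eq_one.mp hc.symm).symm
  calc n * (s' : G) = n * (s' : G) * n⁻¹ * n := by group
    _ = (s' : G) * n := by rw [h5]

/-- For a strictly increasing chain of `p`-subgroups with `N` the intersection of their
normalizers, block idempotents of `N` are supported on the centralizer of the top member. -/
theorem chain_block_support5 {G : Type u} [Group G] [Fintype G] (p : ℕ) [Fact p.Prime]
    (M : Ideal Cfsg.AlgInt) (hM : Cfsg.IsPModular p M) (m : ℕ) (Q : Fin (m + 1) → Subgroup G)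
    (hQ : StrictMono Q) (hQp : ∀ i, IsPGroup p (Q i)) (N : Subgroup G)
    (hN : ∀ g : G, g ∈ N ↔ ∀ i, g ∈ Subgroup.normalizer (Q i : Set G))
    (E : Set (Cfsg.IrrCharacter N)) (hE : Cfsg.IsPBlock M E) (n : N)
    (hn : (n : G) ∉ Subgroup.centralizer (Q (Fin.last m) : Set G)) :
    Cfsg.blockCoeff E n = 0 := by
  classical
  haveI : Fintype N := Fintype.ofFinite N
  by_contra hne
  have hreg : ¬ p ∣ orderOf n := by
    intro hdiv
    apply hne
    have h907 := Cfsg.Agent.S0907.result p M hM E hE (1 : N) n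
      (by
        rw [orderOf_one]
        exact fun h => (Fact.out : p.Prime).one_lt.ne' (Nat.dvd_one.mp h)) hdiv
    unfold Cfsg.blockCoeff
    rw [h907, mul_zero]
  have hregG : ¬ p ∣ orderOf (n : G) := by rwa [Subgroup.orderOf_coe]
  have hcent : ∀ P' : Subgroup N, P'.Normal → IsPGroup p P' → ∀ y ∈ P', n * y = y * n := by
    intro P' hP'n hP'p y hy
    by_contra hny
    apply hne
    haveI := hP'n
    refine Cfsg.Agent.S4653.result p M hM P' hP'p E hE n ?_
    intro hmem
    rw [Subgroup.mem_centralizer_iff] at hmem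
    exact hny (hmem y hy).symm
  have hnN : ∀ i, (n : G) ∈ Subgroup.normalizer (Q i : Set G) := (hN n).mp n.2
  have hmono : Monotone Q := hQ.monotone
  have hsub : ∀ j, ((Q j).subgroupOf N).Normal := by
    intro j
    constructor
    intro y hy g
    rw [Subgroup.mem_subgroupOf] at hy ⊢
    have hg := (hN g).mp g.2 j
    rw [Subgroup.mem_normalizer_iff] at hg
    exact (hg y).mp hy
  have hsubp : ∀ j, IsPGroup p ((Q j).subgroupOf N) := fun j =>
    (hQp j).comap_of_injective _ (Subgroup.subtype_injective _)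
  have hcentQ : ∀ j, ∀ x ∈ Q j, x ∈ N → (n : G) * x = x * (n : G) := by
    intro j x hx hxN
    have h := hcent _ (hsub j) (hsubp j) ⟨x, hxN⟩ (Subgroup.mem_subgroupOf.mpr hx)
    exact congrArg Subtype.val h
  have key : ∀ i : Fin (m + 1), ∀ x ∈ Q i, (n : G) * x = x * (n : G) := by
    intro i
    induction i using Fin.induction with
    | zero =>
      intro x hx
      apply hcentQ 0 x hx
      rw [hN]
      intro j
      exact Subgroup.le_normalizer (hmono (Fin.zero_le j) hx)
    | succ i ih =>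
      have hle : Q i.castSucc ≤ Q i.succ := hmono (le_of_lt Fin.castSucc_lt_succ)
      refine pprime_centralizes5 (p := p) (Q i.succ) (Q i.castSucc) (hQp i.succ) hle (n : G) ?_
        (orderOf (n : G)) (pow_orderOf_eq_one _) ?_ ih ?_
      · intro x hx
        have h := hnN i.succ
        rw [Subgroup.mem_normalizer_iff] at h
        exact (h x).mp hx
      · exact (Nat.Coprime.symm ((Nat.Prime.coprime_iff_not_dvd Fact.out).mpr hregG))
      · intro x hx hxB
        apply hcentQ i.succ x hx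
        rw [hN]
        intro j
        rcases le_or_gt j i.castSucc with h | h
        · apply Subgroup.centralizer_le_normalizer
          rw [Subgroup.mem_centralizer_iff]
          intro q hq
          exact hxB q (hmono h hq)
        · have h' : i.succ ≤ j := Fin.castSucc_lt_iff_succ_le.mp h
          exact Subgroup.le_normalizer (hmono h' hx)
  apply hn
  rw [Subgroup.mem_centralizer_iff]
  intro q hq
  exact (key (Fin.last m) q hq).symm

end Cfsg.Agent.Lib.Helper5
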