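import Mathlib
import Cfsg.Prelude.Def_Blocks
import Cfsg.Agent.S0958
import Cfsg.Agent.S0906
import Cfsg.Agent.S0908
import Cfsg.Agent.S0912
import Cfsg.Agent.S0917

set_option autoImplicit false

namespace Cfsg.Agent.Lib.Helper5

universe u

/-- A defect group is radical: `O_p(N_G(D)) = D`. -/
theorem defect_radical5 {G : Type u} [Group G] [Finite G] (p : ℕ) [Fact p.Prime]
    (M : Ideal Cfsg.AlgInt) (hM : Cfsg.IsPModular p M) (B : Set (Cfsg.IrrCharacter G))
    (hB : Cfsg.IsPBlock M B) (D : Subgroup G) (hD : Cfsg.IsDefectGroup p M B D) :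
    (Cfsg.pCore p (Subgroup.normalizer (D : Set G))).map
      (Subgroup.normalizer (D : Set G)).subtype = D := by
  classical
  have hcardD := Cfsg.Agent.S0908.result p M hM B hB D hD
  have hDp : IsPGroup p D := IsPGroup.of_card hcardD
  have hDle : D ≤ Subgroup.normalizer (D : Set G) := Subgroup.le_normalizer
  obtain ⟨b, hind⟩ := (Cfsg.Agent.S0958.result p M hM D (Subgroup.normalizer (D : Set G)) hDp
    (sup_le hDle (Subgroup.centralizer_le_normalizer _)) le_rfl B hB).mpr
    ⟨D, hD, 1, by
      intro y hy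
      obtain ⟨d, hd, rfl⟩ := Subgroup.mem_map.mp hy
      simpa using hd⟩
  have hb : Cfsg.IsPBlock M b := hind.1
  obtain ⟨g₀, hg₀⟩ := Cfsg.Agent.S0906.result p M hM b hb
  obtain ⟨P₁⟩ : Nonempty (Sylow p
      (Subgroup.centralizer ({g₀} : Set (Subgroup.normalizer (D : Set G))))) := inferInstance
  have hDb : Cfsg.IsDefectGroup p M b ((P₁ : Subgroup _).map
      (Subgroup.centralizer ({g₀} : Set (Subgroup.normalizer (D : Set G)))).subtype) :=
    ⟨g₀, hg₀, P₁, rfl⟩
  have h912 := Cfsg.Agent.S0912.result p M hM b hb _ hDb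
  obtain ⟨E, hE, hDbE⟩ := Cfsg.Agent.S0917.result p M hM (Subgroup.normalizer (D : Set G))
    b hb B hB hind _ hDb
  have hRE : (Cfsg.pCore p (Subgroup.normalizer (D : Set G))).map
      (Subgroup.normalizer (D : Set G)).subtype ≤ E :=
    le_trans (Subgroup.map_mono h912) hDbE
  have hDR : D ≤ (Cfsg.pCore p (Subgroup.normalizer (D : Set G))).map
      (Subgroup.normalizer (D : Set G)).subtype := by
    have h1 : D.subgroupOf (Subgroup.normalizer (D : Set G))
        ≤ Cfsg.pCore p (Subgroup.normalizer (D : Set G)) :=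
      le_sSup ⟨Subgroup.normal_in_normalizer,
        hDp.comap_of_injective _ (Subgroup.subtype_injective _)⟩
    have h2 := Subgroup.map_mono (f := (Subgroup.normalizer (D : Set G)).subtype) h1
    rwa [Subgroup.map_subgroupOf_eq_of_le hDle] at h2
  have hcardE := Cfsg.Agent.S0908.result p M hM B hB E hE
  have hcard : Nat.card ↥((Cfsg.pCore p (Subgroup.normalizer (D : Set G))).map
      (Subgroup.normalizer (D : Set G)).subtype) ≤ Nat.card D := by
    rw [hcardD, ← hcardE]
    exact Subgroup.card_le_of_le hRE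
  exact (Subgroup.eq_of_le_of_card_ge hDR hcard).symm

end Cfsg.Agent.Lib.Helper5
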