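import Mathlib
import Cfsg.Prelude.Def_CaseTheorems
import Cfsg.Prelude.Def_Transfer
import Cfsg.Agent.Lib.Lead.DihFusion
import Cfsg.Agent.Lib.Helper5.QDFour5

set_option autoImplicit false

namespace Cfsg.Agent.Lib.Helper5

universe u

theorem zmod_two_torsion5 (m : ℕ) (j k : ZMod m) (hj : j + j = 0) (hj0 : j ≠ 0)
    (hk : k + k = 0) (hk0 : k ≠ 0) : j = k := by
  rcases Nat.eq_zero_or_pos m with h0 | hpos
  · subst h0
    exfalso
    apply hj0
    have h1 : ∀ a : ℤ, a + a = 0 → a = 0 := fun a h => by omega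
    exact h1 j hj
  · haveI : NeZero m := ⟨hpos.ne'⟩
    exact Cfsg.Agent.Lib.Lead.zmod_two_torsion_unique m j k (by rw [two_mul]; exact hj) hj0
      (by rw [two_mul]; exact hk) hk0

theorem exists_mem_ne_ne5 {G : Type u} [Group G] (B : Subgroup G) (hB : Nat.card B = 4) (a b : G) :
    ∃ c ∈ B, c ≠ a ∧ c ≠ b := by
  by_contra hcon
  push Not at hcon
  have hsub : (B : Set G) ⊆ {a, b} := by
    intro c hc
    by_cases hca : c = a
    · left; exact hca
    · right; exact hcon c hc hca
  have h1 : (B : Set G).ncard ≤ ({a, b} : Set G).ncard :=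
    Set.ncard_le_ncard hsub (Set.toFinite _)
  have h2 : ({a, b} : Set G).ncard ≤ 2 := by
    have h4 := Set.ncard_insert_le a ({b} : Set G)
    rw [Set.ncard_singleton] at h4
    exact h4
  have h3 : Nat.card B = (B : Set G).ncard := Nat.card_coe_set_eq _
  omega

/-- a Klein four-subgroup of a dihedral group is self-centralizing -/
theorem dihedral_four_cent5 (m : ℕ) (B : Subgroup (DihedralGroup m)) (hB : IsKleinFour B) :
    Subgroup.centralizer (B : Set (DihedralGroup m)) ≤ B := by
  have hsq : ∀ b ∈ B, b * b = 1 := fun b hb =>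
    congrArg Subtype.val (IsKleinFour.mul_self (⟨b, hb⟩ : B))
  have hc4 : Nat.card B = 4 := IsKleinFour.card_four
  have hrot : ∀ j : ZMod m, DihedralGroup.r j ∈ B → j + j = 0 := by
    intro j hj
    have h1 := hsq _ hj
    rw [DihedralGroup.r_mul_r, DihedralGroup.one_def] at h1
    exact DihedralGroup.r.inj h1
  have hr0 : ∀ j : ZMod m, DihedralGroup.r j ≠ 1 → j ≠ 0 := by
    intro j hj e
    apply hj
    rw [e, DihedralGroup.one_def]
  -- a reflection in B
  have hex : ∃ i : ZMod m, DihedralGroup.sr i ∈ B := by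
    obtain ⟨b₁, hb₁, hb₁1, -⟩ := exists_mem_ne_ne5 B hc4 1 1
    obtain ⟨b₂, hb₂, hb₂1, hb₂b⟩ := exists_mem_ne_ne5 B hc4 1 b₁
    rcases b₁ with j | i
    · rcases b₂ with k | i
      · exfalso
        apply hb₂b
        rw [zmod_two_torsion5 m k j (hrot k hb₂) (hr0 k hb₂1) (hrot j hb₁) (hr0 j hb₁1)]
      · exact ⟨i, hb₂⟩
    · exact ⟨i, hb₁⟩
  obtain ⟨i, hi⟩ := hex
  -- a nontrivial rotation in B
  have hex2 : ∃ k : ZMod m, DihedralGroup.r k ∈ B ∧ k ≠ 0 := by
    obtain ⟨b, hb, hb1, hbi⟩ := exists_mem_ne_ne5 B hc4 1 (DihedralGroup.sr i)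
    rcases b with k | j
    · exact ⟨k, hb, hr0 k hb1⟩
    · refine ⟨j - i, ?_, ?_⟩
      · have h1 := B.mul_mem hi hb
        rwa [DihedralGroup.sr_mul_sr] at h1
      · intro e
        apply hbi
        rw [sub_eq_zero.1 e]
  obtain ⟨k, hk, hk0⟩ := hex2
  have hkk := hrot k hk
  intro g hg
  rw [Subgroup.mem_centralizer_iff] at hg
  have h1 := hg _ hi
  rcases g with l | l
  · rw [DihedralGroup.sr_mul_r, DihedralGroup.r_mul_sr] at h1
    have h2 : i + l = i - l := DihedralGroup.sr.inj h1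
    have h3 : l + l = 0 := by
      have : l = -l := by
        have h4 := add_left_cancel (a := i) (b := l) (c := -l) (by rw [h2, sub_eq_add_neg])
        exact h4
      calc l + l = l + -l := by rw [← this]
        _ = 0 := add_neg_cancel l
    by_cases hl0 : l = 0
    · rw [hl0, ← DihedralGroup.one_def]
      exact B.one_mem
    · rw [zmod_two_torsion5 m l k h3 hl0 hkk hk0]
      exact hk
  · rw [DihedralGroup.sr_mul_sr, DihedralGroup.sr_mul_sr] at h1
    have h2 : l - i = i - l := DihedralGroup.r.inj h1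
    have h3 : (i - l) + (i - l) = 0 := by
      have : i - l = -(i - l) := by rw [neg_sub]; exact h2.symm
      calc (i - l) + (i - l) = (i - l) + -(i - l) := by rw [← this]
        _ = 0 := add_neg_cancel _
    by_cases hl0 : i - l = 0
    · rw [← sub_eq_zero.1 hl0]
      exact hi
    · have h4 := zmod_two_torsion5 m (i - l) k h3 hl0 hkk hk0
      have h5 : DihedralGroup.sr l = DihedralGroup.sr i * (DihedralGroup.r k)⁻¹ := by
        rw [DihedralGroup.inv_r, DihedralGroup.sr_mul_r]
        congr 1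
        rw [← h4]; ring
      rw [h5]
      exact B.mul_mem hi (B.inv_mem hk)

/-- S1236 -/
theorem cent_elemAb8_5 {R : Type u} [Group R] [Finite R] (t : R) (ht : orderOf t = 2)
    [hZn : (Subgroup.zpowers t).Normal]
    (hq : (∃ m : ℕ, 2 ≤ m ∧ Nonempty (R ⧸ Subgroup.zpowers t ≃* DihedralGroup m)) ∨
      Cfsg.IsQuasiDihedral (R ⧸ Subgroup.zpowers t))
    (A : Subgroup R) (hA : Cfsg.IsElementaryAbelian 2 A) (hA8 : Nat.card A = 8) (htA : t ∈ A) :
    Subgroup.centralizer (A : Set R) = A := by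
  obtain ⟨hAc, hA2⟩ := hA
  have hZA : Subgroup.zpowers t ≤ A := Subgroup.zpowers_le.2 htA
  obtain ⟨B, hB⟩ : ∃ B : Subgroup (R ⧸ Subgroup.zpowers t),
      B = A.map (QuotientGroup.mk' (Subgroup.zpowers t)) := ⟨_, rfl⟩
  have hBcard : Nat.card B = 4 := by
    let f : A →* R ⧸ Subgroup.zpowers t :=
      (QuotientGroup.mk' (Subgroup.zpowers t)).comp A.subtype
    have hr : f.range = B := by
      rw [hB, MonoidHom.range_comp, Subgroup.range_subtype]
    have hk : f.ker = (Subgroup.zpowers t).subgroupOf A := by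
      ext a
      rw [MonoidHom.mem_ker, Subgroup.mem_subgroupOf]
      show (QuotientGroup.mk' (Subgroup.zpowers t)) (a : R) = 1 ↔ _
      rw [QuotientGroup.mk'_apply, QuotientGroup.eq_one_iff]
    have h1 := Subgroup.card_mul_index f.ker
    rw [Subgroup.index_ker, hr, hk, Nat.card_congr (Subgroup.subgroupOfEquivOfLe hZA).toEquiv,
      Nat.card_zpowers, ht, hA8] at h1
    omega
  have hBsq : ∀ b ∈ B, b ^ 2 = 1 := by
    intro b hb
    rw [hB] at hb
    obtain ⟨a, ha, rfl⟩ := hb
    rw [← map_pow, hA2 a ha, map_one]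
  have hBK : IsKleinFour B := by
    refine ⟨hBcard, ?_⟩
    have h1 : Monoid.exponent B ∣ 2 := Monoid.exponent_dvd_of_forall_pow_eq_one
      (fun b => Subtype.ext (by rw [Subgroup.coe_pow]; exact hBsq b.1 b.2))
    rcases (Nat.dvd_prime Nat.prime_two).1 h1 with e | e
    · exfalso
      rw [Monoid.exp_eq_one_iff] at e
      have h2 := Nat.card_eq_one_iff_unique.2 ⟨e, ⟨(1 : B)⟩⟩
      omega
    · exact e
  have hcent : Subgroup.centralizer (B : Set (R ⧸ Subgroup.zpowers t)) ≤ B := by
    rcases hq with ⟨m, hm, ⟨e⟩⟩ | hqd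
    · have hB' : IsKleinFour (B.map e.toMonoidHom) := by
        have φ : B ≃* B.map e.toMonoidHom := e.subgroupMap B
        exact ⟨by rw [← Nat.card_congr φ.toEquiv]; exact hBcard,
          by rw [← Monoid.exponent_eq_of_mulEquiv φ]; exact hBK.exponent_two⟩
      have h1 := dihedral_four_cent5 m _ hB'
      intro g hg
      have h2 : e g ∈ Subgroup.centralizer ((B.map e.toMonoidHom : Subgroup _) : Set _) := by
        rw [Subgroup.mem_centralizer_iff]
        rintro _ ⟨b, hb, rfl⟩
        rw [Subgroup.mem_centralizer_iff] at hg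
        show e b * e g = e g * e b
        rw [← map_mul, ← map_mul, hg b hb]
      obtain ⟨b, hb, hbe⟩ := h1 h2
      have e2 : b = g := e.injective hbe
      rw [← e2]; exact hb
    · exact ((qd_four5 hqd).2 B hBK).1.le
  apply le_antisymm
  · intro g hg
    have h1 : (QuotientGroup.mk' (Subgroup.zpowers t)) g ∈
        Subgroup.centralizer (B : Set (R ⧸ Subgroup.zpowers t)) := by
      rw [Subgroup.mem_centralizer_iff]
      intro b hb
      rw [hB] at hb
      obtain ⟨a, ha, rfl⟩ := hb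
      rw [Subgroup.mem_centralizer_iff] at hg
      rw [← map_mul, ← map_mul, hg a ha]
    have h2 := hcent h1
    rw [hB] at h2
    obtain ⟨a, ha, hae⟩ := h2
    have h3 : a⁻¹ * g ∈ Subgroup.zpowers t := by
      rw [← QuotientGroup.eq]
      exact hae
    have e1 : g = a * (a⁻¹ * g) := by group
    rw [e1]
    exact A.mul_mem ha (hZA h3)
  · intro a ha
    rw [Subgroup.mem_centralizer_iff]
    intro b hb
    have h1 := hAc.is_comm.comm (⟨b, hb⟩ : A) ⟨a, ha⟩
    exact congrArg Subtype.val h1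

end Cfsg.Agent.Lib.Helper5
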