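import Mathlib
import Cfsg.Prelude
import Cfsg.Agent.Lib.Helper5.ESSing5
import Cfsg.Agent.Lib.Helper2.FStar
import Cfsg.Agent.Lib.Helper2.Fit

set_option autoImplicit false

namespace Cfsg.Agent.Lib.Helper5

universe u

/-- transfer of the elementwise extraspecial data from a subgroup `C` to the ambient group -/
theorem esdata_map5 {G : Type u} [Group G] (C : Subgroup G) (F : Subgroup ↥C) (z' : ↥C)
    (data : ESData5 F z') (hCz : ∀ c : G, c * (z' : G) = (z' : G) * c → c ∈ C) :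
    ESData5 (F.map C.subtype) (z' : G) := by
  obtain ⟨hzQ, hz1, hz2, hzc, hZQ, hcomQ, hsqQ, hinQ, hnQ⟩ := data
  have hmem : ∀ q : G, q ∈ F.map C.subtype → ∃ h : q ∈ C, (⟨q, h⟩ : ↥C) ∈ F := by
    rintro _ ⟨q', hq', rfl⟩
    exact ⟨q'.2, hq'⟩
  have hmem' : ∀ q' : ↥C, q' ∈ F → (q' : G) ∈ F.map C.subtype := fun q' h => ⟨q', h, rfl⟩
  have hz1' : (z' : G) ≠ 1 := by
    intro h
    apply hz1
    exact Subtype.ext h
  have hz2' : (z' : G) ^ 2 = 1 := congrArg Subtype.val hz2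
  refine ⟨hmem' z' hzQ, hz1', hz2', ?_, ?_, ?_, ?_, ?_, ?_⟩
  · intro q hq
    obtain ⟨h, hq'⟩ := hmem q hq
    exact congrArg Subtype.val (hzc ⟨q, h⟩ hq')
  · intro c hc hcc
    obtain ⟨h, hc'⟩ := hmem c hc
    have h1 : ∀ q' ∈ F, q' * (⟨c, h⟩ : ↥C) = ⟨c, h⟩ * q' := by
      intro q' hq'
      exact Subtype.ext (hcc _ (hmem' q' hq'))
    rcases hZQ _ hc' h1 with h2 | h2
    · left; exact congrArg Subtype.val h2
    · right; exact congrArg Subtype.val h2
  · intro a ha b hb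
    obtain ⟨h, ha'⟩ := hmem a ha
    obtain ⟨h', hb'⟩ := hmem b hb
    rcases hcomQ _ ha' _ hb' with h2 | h2
    · left; exact congrArg Subtype.val h2
    · right; exact congrArg Subtype.val h2
  · intro a ha
    obtain ⟨h, ha'⟩ := hmem a ha
    rcases hsqQ _ ha' with h2 | h2
    · left; exact congrArg Subtype.val h2
    · right; exact congrArg Subtype.val h2
  · intro c hcn hcc
    have hcz : c * (z' : G) = (z' : G) * c := by
      rcases hcc _ (hmem' z' hzQ) with h | h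
      · rw [mul_inv_eq_one, mul_inv_eq_iff_eq_mul] at h; exact h
      · exfalso
        apply hz1'
        rw [mul_inv_eq_iff_eq_mul, ← pow_two, hz2', mul_inv_eq_one] at h
        have e : (z' : G) = c⁻¹ * (c * (z' : G)) := by group
        rw [e, h]; group
    have hcC := hCz c hcz
    have h1 : ∀ q' ∈ F, (⟨c, hcC⟩ : ↥C) * q' * (⟨c, hcC⟩ : ↥C)⁻¹ ∈ F := by
      intro q' hq'
      obtain ⟨h, h2⟩ := hmem _ (hcn _ (hmem' q' hq'))
      exact h2
    have h2 : ∀ q' ∈ F, (⟨c, hcC⟩ : ↥C) * q' * (⟨c, hcC⟩ : ↥C)⁻¹ * q'⁻¹ = 1 ∨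
        (⟨c, hcC⟩ : ↥C) * q' * (⟨c, hcC⟩ : ↥C)⁻¹ * q'⁻¹ = z' := by
      intro q' hq'
      rcases hcc _ (hmem' q' hq') with h | h
      · left; exact Subtype.ext h
      · right; exact Subtype.ext h
    exact hmem' _ (hinQ _ h1 h2)
  · intro c hcz q hq
    have hcC := hCz c hcz
    obtain ⟨h, hq'⟩ := hmem q hq
    have h1 := hnQ ⟨c, hcC⟩ (Subtype.ext hcz) _ hq'
    exact hmem' _ h1

/-- commuting with a product, in a group with extraspecial data -/
theorem es_comm_mul5 {G : Type u} [Group G] (Q : Subgroup G) (z : G) (data : ESData5 Q z)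
    (a u v : G) (ha : a ∈ Q) (hu : u ∈ Q) (hv : v ∈ Q) :
    a * (u * v) = (u * v) * a ↔ (a * u = u * a ↔ a * v = v * a) := by
  obtain ⟨hzQ, hz1, hz2, hzc, hZQ, hcomQ, hsqQ, hinQ, hnQ⟩ := data
  have hzz : z * z = 1 := by rw [← pow_two]; exact hz2
  have e : a * (u * v) * a⁻¹ * (u * v)⁻¹ =
      (a * u * a⁻¹ * u⁻¹) * (u * (a * v * a⁻¹ * v⁻¹) * u⁻¹) := by group
  have h0 : a * (u * v) = (u * v) * a ↔ a * (u * v) * a⁻¹ * (u * v)⁻¹ = 1 := by
    rw [mul_inv_eq_one, mul_inv_eq_iff_eq_mul]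
  have h1 : a * u = u * a ↔ a * u * a⁻¹ * u⁻¹ = 1 := by
    rw [mul_inv_eq_one, mul_inv_eq_iff_eq_mul]
  have h2 : a * v = v * a ↔ a * v * a⁻¹ * v⁻¹ = 1 := by
    rw [mul_inv_eq_one, mul_inv_eq_iff_eq_mul]
  rw [h0, h1, h2, e]
  rcases hcomQ a ha u hu with hk | hk <;> rcases hcomQ a ha v hv with hk' | hk'
  · rw [hk, hk']
    constructor
    · intro _; exact Iff.rfl
    · intro _; group
  · rw [hk, hk']
    have e2 : u * z * u⁻¹ = z := by rw [mul_inv_eq_iff_eq_mul]; exact hzc u hu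
    rw [e2, one_mul]
    constructor
    · intro h; exact absurd h hz1
    · intro h; exact absurd (h.1 rfl) hz1
  · rw [hk, hk']
    have e2 : z * (u * 1 * u⁻¹) = z := by group
    rw [e2]
    constructor
    · intro h; exact absurd h hz1
    · intro h; exact absurd (h.2 rfl) hz1
  · rw [hk, hk']
    have e2 : u * z * u⁻¹ = z := by rw [mul_inv_eq_iff_eq_mul]; exact hzc u hu
    rw [e2, hzz]
    constructor
    · intro _; exact Iff.rfl
    · intro _; rfl

/-- the commutators of an involution `α ∈ C(z)` outside `Q` with the extraspecial group `Q` -/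
theorem es_alpha_comm5 {G : Type u} [Group G] [Finite G] (Q : Subgroup G) (z α : G)
    (data : ESData5 Q z) (hαz : α * z = z * α) (hαα : α * α = 1) (hαQ : α ∉ Q)
    (Q₀ : Subgroup G)
    (hQ₀ : ∀ q : G, q ∈ Q₀ ↔ (q ∈ Q ∧ α * q * α⁻¹ * q⁻¹ ∈ Subgroup.zpowers z)) :
    Subgroup.closure ((fun q : G => α * q * α⁻¹ * q⁻¹) '' (Q : Set G)) =
        (Subgroup.center ↥Q₀).map Q₀.subtype ∧
      (¬ Q₀ ≤ (Q ⊓ Subgroup.centralizer ({α} : Set G)) ⊔ Subgroup.zpowers z →
        ∃ q ∈ Q, q * α * q⁻¹ = α * z) := by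
  have data' := data
  obtain ⟨hcc, hZ⟩ := esdata_center5 Q z data
  obtain ⟨hzQ, hz1, hz2, hzc, hZQ, hcomQ, hsqQ, hinQ, hnQ⟩ := data
  have hzz : z * z = 1 := by rw [← pow_two]; exact hz2
  have hzinv : z⁻¹ = z := inv_eq_of_mul_eq_one_left hzz
  have hαinv : α⁻¹ = α := inv_eq_of_mul_eq_one_left hαα
  have hαN : ∀ q ∈ Q, α * q * α⁻¹ ∈ Q := hnQ α hαz
  have hzp : ∀ v : G, v ∈ Subgroup.zpowers z ↔ (v = 1 ∨ v = z) := by
    intro v
    constructor
    · intro hv
      obtain ⟨k, rfl⟩ := Subgroup.mem_zpowers_iff.mp hv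
      rcases Int.even_or_odd' k with ⟨m, rfl | rfl⟩
      · left
        rw [zpow_mul, zpow_ofNat, hz2, one_zpow]
      · right
        rw [zpow_add, zpow_mul, zpow_ofNat, hz2, one_zpow, one_mul, zpow_one]
    · rintro (h | h)
      · rw [h]; exact Subgroup.one_mem _
      · rw [h]; exact Subgroup.mem_zpowers z
  have hdQ : ∀ q ∈ Q, α * q * α⁻¹ * q⁻¹ ∈ Q := fun q hq =>
    Q.mul_mem (hαN q hq) (Q.inv_mem hq)
  -- the key symmetry
  have hconjα : ∀ a b : G, a * b = b * a ↔ (α * a * α⁻¹) * (α * b * α⁻¹) =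
      (α * b * α⁻¹) * (α * a * α⁻¹) := by
    intro a b
    constructor
    · intro h
      calc (α * a * α⁻¹) * (α * b * α⁻¹) = α * (a * b) * α⁻¹ := by group
        _ = α * (b * a) * α⁻¹ := by rw [h]
        _ = (α * b * α⁻¹) * (α * a * α⁻¹) := by group
    · intro h
      calc a * b = α⁻¹ * ((α * a * α⁻¹) * (α * b * α⁻¹)) * α := by group
        _ = α⁻¹ * ((α * b * α⁻¹) * (α * a * α⁻¹)) * α := by rw [h]
        _ = b * a := by group
  have hαα' : ∀ q : G, α * (α * q * α⁻¹) * α⁻¹ = q := by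
    intro q
    calc α * (α * q * α⁻¹) * α⁻¹ = (α * α) * q * (α * α)⁻¹ := by group
      _ = q := by rw [hαα]; group
  have hinvc : ∀ a b : G, a * b = b * a ↔ a * b⁻¹ = b⁻¹ * a := by
    intro a b
    constructor
    · intro h
      calc a * b⁻¹ = b⁻¹ * (b * a) * b⁻¹ := by group
        _ = b⁻¹ * (a * b) * b⁻¹ := by rw [h]
        _ = b⁻¹ * a := by group
    · intro h
      calc a * b = b * (b⁻¹ * a) * b := by group
        _ = b * (a * b⁻¹) * b := by rw [h]
        _ = b * a := by group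
  have hKE1 : ∀ q ∈ Q, ∀ q' ∈ Q,
      (q' * (α * q * α⁻¹ * q⁻¹) = (α * q * α⁻¹ * q⁻¹) * q' ↔
        (q' * (α * q * α⁻¹) = (α * q * α⁻¹) * q' ↔ q' * q = q * q')) := by
    intro q hq q' hq'
    have h1 := es_comm_mul5 Q z data' q' (α * q * α⁻¹) q⁻¹ hq' (hαN q hq) (Q.inv_mem hq)
    rw [← hinvc q' q] at h1
    exact h1
  have hsw : ∀ q ∈ Q, ∀ q' ∈ Q,
      (q' * (α * q * α⁻¹) = (α * q * α⁻¹) * q' ↔ q * (α * q' * α⁻¹) = (α * q' * α⁻¹) * q) := by
    intro q hq q' hq'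
    rw [hconjα q' (α * q * α⁻¹), hαα' q]
    constructor
    · intro h; exact h.symm
    · intro h; exact h.symm
  have hKE : ∀ q ∈ Q, ∀ q' ∈ Q,
      (q' * (α * q * α⁻¹ * q⁻¹) = (α * q * α⁻¹ * q⁻¹) * q' ↔
        q * (α * q' * α⁻¹ * q'⁻¹) = (α * q' * α⁻¹ * q'⁻¹) * q) := by
    intro q hq q' hq'
    rw [hKE1 q hq q' hq', hKE1 q' hq' q hq, hsw q hq q' hq']
    constructor
    · intro h
      constructor
      · intro h1; exact (h.1 h1).symm
      · intro h1; exact h.2 h1.symm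
    · intro h
      constructor
      · intro h1; exact (h.1 h1).symm
      · intro h1; exact h.2 h1.symm
  obtain ⟨D, hDdef⟩ : ∃ D : Subgroup G,
      D = Subgroup.closure ((fun q : G => α * q * α⁻¹ * q⁻¹) '' (Q : Set G)) := ⟨_, rfl⟩
  rw [← hDdef]
  have hD1 : ∀ q ∈ Q, α * q * α⁻¹ * q⁻¹ ∈ D := by
    intro q hq
    rw [hDdef]
    exact Subgroup.subset_closure ⟨q, hq, rfl⟩
  have hDQ : D ≤ Q := by
    rw [hDdef, Subgroup.closure_le]
    rintro _ ⟨q, hq, rfl⟩
    exact hdQ q hq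
  have hzD : z ∈ D := by
    have hex : ∃ q ∈ Q, α * q * α⁻¹ * q⁻¹ ≠ 1 := by
      by_contra hcon
      push Not at hcon
      exact hαQ (hinQ α hαN (fun q hq => Or.inl (hcon q hq)))
    obtain ⟨q, hq, hd1⟩ := hex
    obtain ⟨d, hd⟩ : ∃ d : G, d = α * q * α⁻¹ * q⁻¹ := ⟨_, rfl⟩
    rw [← hd] at hd1
    have hdD : d ∈ D := by rw [hd]; exact hD1 q hq
    have hdQ' : d ∈ Q := hDQ hdD
    by_cases hcen : ∀ q' ∈ Q, q' * d = d * q'
    · rcases hZQ d hdQ' hcen with h | h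
      · exact absurd h hd1
      · rw [← h]; exact hdD
    · push Not at hcen
      obtain ⟨q', hq', hne⟩ := hcen
      have hconj : q' * d * q'⁻¹ ∈ D := by
        have e : q' * d * q'⁻¹ = (α * q' * α⁻¹ * q'⁻¹)⁻¹ * (α * (q' * q) * α⁻¹ * (q' * q)⁻¹) := by
          rw [hd]; group
        rw [e]
        exact D.mul_mem (D.inv_mem (hD1 q' hq')) (hD1 _ (Q.mul_mem hq' hq))
      rcases hcomQ q' hq' d hdQ' with h | h
      · exfalso; apply hne
        rw [mul_inv_eq_one, mul_inv_eq_iff_eq_mul] at h; exact h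
      · rw [← h]; exact D.mul_mem hconj (D.inv_mem hdD)
  have hcenmem : ∀ c : G, c ∈ (Subgroup.center ↥Q₀).map Q₀.subtype ↔
      (c ∈ Q₀ ∧ ∀ q' ∈ Q₀, q' * c = c * q') := by
    intro c
    constructor
    · rintro ⟨c', hc', rfl⟩
      have hc2 : c' ∈ Subgroup.center ↥Q₀ := hc'
      rw [Subgroup.mem_center_iff] at hc2
      refine ⟨c'.2, ?_⟩
      intro q' hq'
      exact congrArg Subtype.val (hc2 ⟨q', hq'⟩)
    · rintro ⟨hc, hcc'⟩
      refine ⟨⟨c, hc⟩, ?_, rfl⟩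
      show (⟨c, hc⟩ : ↥Q₀) ∈ Subgroup.center ↥Q₀
      rw [Subgroup.mem_center_iff]
      intro q'
      exact Subtype.ext (hcc' q' q'.2)
  constructor
  · apply le_antisymm
    · rw [hDdef, Subgroup.closure_le]
      rintro _ ⟨q, hq, rfl⟩
      show α * q * α⁻¹ * q⁻¹ ∈ (Subgroup.center ↥Q₀).map Q₀.subtype
      rw [hcenmem]
      constructor
      · rw [hQ₀]
        refine ⟨hdQ q hq, ?_⟩
        have e1 : α * (α * q * α⁻¹ * q⁻¹) * α⁻¹ * (α * q * α⁻¹ * q⁻¹)⁻¹ =
            (α * α) * q * α⁻¹ * q⁻¹ * α⁻¹ * q * α * q⁻¹ * α⁻¹ := by group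
        have e2 : q * α⁻¹ * q⁻¹ * α⁻¹ * q * α * q⁻¹ * α⁻¹ =
            (q * (α * q⁻¹ * α⁻¹)) ^ 2 := by
          rw [pow_two]
          calc q * α⁻¹ * q⁻¹ * α⁻¹ * q * α * q⁻¹ * α⁻¹
              = q * α * q⁻¹ * α⁻¹ * q * α * q⁻¹ * α⁻¹ := by rw [hαinv]
            _ = q * (α * q⁻¹ * α⁻¹) * (q * (α * q⁻¹ * α⁻¹)) := by group
        rw [e1, hαα, one_mul, e2, hzp]
        exact hsqQ _ (Q.mul_mem hq (hαN _ (Q.inv_mem hq)))
      · intro q' hq'
        obtain ⟨hq'Q, hq'z⟩ := (hQ₀ q').1 hq'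
        rw [hKE q hq q' hq'Q]
        rcases (hzp _).1 hq'z with h | h
        · rw [h, mul_one, one_mul]
        · rw [h]; exact hzc q hq
    · intro c hc
      obtain ⟨hcQ₀, hcc'⟩ := (hcenmem c).1 hc
      have hcQ : c ∈ Q := ((hQ₀ c).1 hcQ₀).1
      have hBcen : Subgroup.center ↥Q ≤ D.subgroupOf Q := by
        intro d hd
        rw [Subgroup.mem_subgroupOf]
        rw [Subgroup.mem_center_iff] at hd
        have h1 : ∀ q ∈ Q, q * (d : G) = (d : G) * q := by
          intro q hq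
          exact congrArg Subtype.val (hd ⟨q, hq⟩)
        rcases hZQ _ d.2 h1 with h | h
        · rw [h]; exact D.one_mem
        · rw [h]; exact hzD
      have hDD := es_double_cent5 hcc hZ (D.subgroupOf Q) hBcen
      have hmem : (⟨c, hcQ⟩ : ↥Q) ∈ D.subgroupOf Q := by
        rw [← hDD, Subgroup.mem_centralizer_iff]
        intro q' hq'0
        have hq' : q' ∈ Subgroup.centralizer ((D.subgroupOf Q : Subgroup ↥Q) : Set ↥Q) := hq'0
        rw [Subgroup.mem_centralizer_iff] at hq'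
        apply Subtype.ext
        show (q' : G) * c = c * (q' : G)
        apply hcc'
        rw [hQ₀]
        refine ⟨q'.2, ?_⟩
        rw [hzp]
        apply hZQ _ (hdQ _ q'.2)
        intro q hq
        rw [← hKE q hq (q' : G) q'.2]
        have h1 := hq' ⟨α * q * α⁻¹ * q⁻¹, hdQ q hq⟩ (Subgroup.mem_subgroupOf.mpr (hD1 q hq))
        exact (congrArg Subtype.val h1).symm
      exact Subgroup.mem_subgroupOf.mp hmem
  · intro hnle
    obtain ⟨q, hqQ₀, hq⟩ := SetLike.not_le_iff_exists.mp hnle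
    obtain ⟨hqQ, hqz⟩ := (hQ₀ q).1 hqQ₀
    refine ⟨q, hqQ, ?_⟩
    rcases (hzp _).1 hqz with h | h
    · exfalso
      apply hq
      apply Subgroup.mem_sup_left
      refine ⟨hqQ, ?_⟩
      show q ∈ Subgroup.centralizer ({α} : Set G)
      rw [Subgroup.mem_centralizer_singleton_iff]
      rw [mul_inv_eq_one, mul_inv_eq_iff_eq_mul] at h
      exact h.symm
    · have e : q * α * q⁻¹ = (α * q * α⁻¹ * q⁻¹)⁻¹ * α := by group
      rw [e, h, hzinv]
      exact hαz.symm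

/-- S1784: commutators of an outer involution with an extraspecial `F*(C(z))` -/
theorem es_alpha_main5 {G : Type u} [Group G] [Finite G] (z : G) (hz : orderOf z = 2)
    (hE : Cfsg.IsExtraspecial 2
      ↥(Cfsg.generalizedFittingSubgroup ↥(Subgroup.centralizer ({z} : Set G))))
    (α : G) (hα : orderOf α = 2) (hαC : α ∈ Subgroup.centralizer ({z} : Set G))
    (hαQ : α ∉ (Cfsg.generalizedFittingSubgroup ↥(Subgroup.centralizer ({z} : Set G))).map
      (Subgroup.centralizer ({z} : Set G)).subtype)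
    (Q₀ : Subgroup G)
    (hQ₀ : ∀ q : G, q ∈ Q₀ ↔
      (q ∈ (Cfsg.generalizedFittingSubgroup ↥(Subgroup.centralizer ({z} : Set G))).map
        (Subgroup.centralizer ({z} : Set G)).subtype ∧
        α * q * α⁻¹ * q⁻¹ ∈ Subgroup.zpowers z)) :
    Subgroup.closure ((fun q : G => α * q * α⁻¹ * q⁻¹) ''
        ((Cfsg.generalizedFittingSubgroup ↥(Subgroup.centralizer ({z} : Set G))).map
          (Subgroup.centralizer ({z} : Set G)).subtype : Set G)) =
        (Subgroup.center ↥Q₀).map Q₀.subtype ∧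
      (¬ Q₀ ≤ ((Cfsg.generalizedFittingSubgroup ↥(Subgroup.centralizer ({z} : Set G))).map
          (Subgroup.centralizer ({z} : Set G)).subtype ⊓
          Subgroup.centralizer ({α} : Set G)) ⊔ Subgroup.zpowers z →
        ∃ q ∈ (Cfsg.generalizedFittingSubgroup ↥(Subgroup.centralizer ({z} : Set G))).map
          (Subgroup.centralizer ({z} : Set G)).subtype, q * α * q⁻¹ = α * z) := by
  haveI : Fact (Nat.Prime 2) := ⟨Nat.prime_two⟩
  have hFn := Cfsg.Agent.Lib.Helper2.genFitting_normal ↥(Subgroup.centralizer ({z} : Set G))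
  have hFc := Cfsg.Agent.Lib.Helper2.centralizer_genFitting_le
    ↥(Subgroup.centralizer ({z} : Set G))
  have hzC : z ∈ Subgroup.centralizer ({z} : Set G) := by
    rw [Subgroup.mem_centralizer_singleton_iff]
  have hzcent : ∀ c : ↥(Subgroup.centralizer ({z} : Set G)),
      c * (⟨z, hzC⟩ : ↥(Subgroup.centralizer ({z} : Set G))) = ⟨z, hzC⟩ * c := by
    intro c
    apply Subtype.ext
    have hc := c.2
    rw [Subgroup.mem_centralizer_singleton_iff] at hc
    exact hc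
  have hzF : (⟨z, hzC⟩ : ↥(Subgroup.centralizer ({z} : Set G))) ∈
      Cfsg.generalizedFittingSubgroup ↥(Subgroup.centralizer ({z} : Set G)) := by
    apply hFc
    rw [Subgroup.mem_centralizer_iff]
    intro y _
    exact hzcent y
  have hz1 : (⟨z, hzC⟩ : ↥(Subgroup.centralizer ({z} : Set G))) ≠ 1 := by
    intro h
    have h1 : z = 1 := congrArg Subtype.val h
    rw [h1, orderOf_one] at hz
    omega
  have dataC := esdata_of5
    (Cfsg.generalizedFittingSubgroup ↥(Subgroup.centralizer ({z} : Set G))) ⟨z, hzC⟩ hE hFc hzF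
    hz1 (fun q _ => hzcent q) (fun c _ q hq => hFn.conj_mem q hq c)
  have data := esdata_map5 (Subgroup.centralizer ({z} : Set G)) _ ⟨z, hzC⟩ dataC (by
    intro c hc
    rw [Subgroup.mem_centralizer_singleton_iff]
    exact hc)
  have hαz : α * z = z * α := Subgroup.mem_centralizer_singleton_iff.mp hαC
  have hαα : α * α = 1 := by
    have h := pow_orderOf_eq_one α
    rw [hα, pow_two] at h
    exact h
  exact es_alpha_comm5 _ z α data hαz hαα hαQ Q₀ hQ₀

end Cfsg.Agent.Lib.Helper5
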