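import Mathlib
import Cfsg.Prelude.Def_MonsterType
import Cfsg.Agent.Lib.Lead.Class2
import Cfsg.Agent.Lib.Lead.CoprimeAction2
import Cfsg.Agent.Lib.Helper4.Frattini
import Cfsg.Agent.S0026
import Cfsg.Agent.S0027

set_option autoImplicit false

namespace Cfsg.Agent.Lib.Helper5

universe u

open scoped commutatorElement

/-- a nonabelian subgroup `S` of an extraspecial 2-group `Q` with `Z(S) = Z(Q)` is extraspecial -/
theorem es_sub5 {G : Type u} [Group G] [Finite G] (Q S : Subgroup G)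
    (hQ : Cfsg.IsExtraspecial 2 ↥Q) (hSQ : S ≤ Q)
    (hZ : ∀ x : G, x ∈ S → (∀ y ∈ S, y * x = x * y) → x ∈ (Subgroup.center ↥Q).map Q.subtype)
    (hZS : (Subgroup.center ↥Q).map Q.subtype ≤ S)
    (hna : ∃ x ∈ S, ∃ y ∈ S, x * y ≠ y * x) :
    Cfsg.IsExtraspecial 2 ↥S := by
  classical
  haveI : Fact (Nat.Prime 2) := ⟨Nat.prime_two⟩
  obtain ⟨⟨hpg, hfrat, hcomm⟩, hZcard⟩ := hQ
  obtain ⟨Z, hZdef⟩ : ∃ Z : Subgroup G, Z = (Subgroup.center ↥Q).map Q.subtype := ⟨_, rfl⟩
  rw [← hZdef] at hZ hZS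
  have hZc : Nat.card Z = 2 := by
    rw [hZdef, Subgroup.card_map_of_injective Q.subtype_injective, hZcard]
  have hmemZ : ∀ x : ↥Q, x ∈ Subgroup.center ↥Q → (x : G) ∈ Z := by
    intro x hx
    rw [hZdef]
    exact ⟨x, hx, rfl⟩
  have hcommQ : ∀ x ∈ Q, ∀ y ∈ Q, x * y * x⁻¹ * y⁻¹ ∈ Z := by
    intro x hx y hy
    have h1 : ⁅(⟨x, hx⟩ : ↥Q), (⟨y, hy⟩ : ↥Q)⁆ ∈ commutator ↥Q := by
      rw [commutator_def]
      exact Subgroup.commutator_mem_commutator (Subgroup.mem_top _) (Subgroup.mem_top _)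
    rw [hcomm] at h1
    exact hmemZ _ h1
  have hsqQ : ∀ x ∈ Q, x ^ 2 ∈ Z := by
    intro x hx
    have h1 : (⟨x, hx⟩ : ↥Q) ^ 2 ∈ frattini ↥Q := Cfsg.Agent.Lib.Helper7.pow_mem_frattini hpg _
    rw [hfrat] at h1
    exact hmemZ _ h1
  have hZcentral : ∀ c ∈ Z, ∀ y ∈ Q, y * c = c * y := by
    intro c hc y hy
    rw [hZdef] at hc
    obtain ⟨c', hc', rfl⟩ := hc
    have := Subgroup.mem_center_iff.mp hc' ⟨y, hy⟩
    exact congrArg Subtype.val this
  have hpS : IsPGroup 2 ↥S :=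
    hpg.of_injective (Subgroup.inclusion hSQ) (Subgroup.inclusion_injective hSQ)
  have hcenter : ∀ x : ↥S, x ∈ Subgroup.center ↥S ↔ (x : G) ∈ Z := by
    intro x
    constructor
    · intro hx
      apply hZ _ x.2
      intro y hy
      have := Subgroup.mem_center_iff.mp hx ⟨y, hy⟩
      exact congrArg Subtype.val this
    · intro hx
      rw [Subgroup.mem_center_iff]
      intro y
      apply Subtype.ext
      exact hZcentral _ hx _ (hSQ y.2)
  have hmapc : (Subgroup.center ↥S).map S.subtype = Z := by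
    ext x
    constructor
    · rintro ⟨x', hx', rfl⟩
      exact (hcenter x').1 hx'
    · intro hx
      exact ⟨⟨x, hZS hx⟩, (hcenter _).2 hx, rfl⟩
  have hcardc : Nat.card (Subgroup.center ↥S) = 2 := by
    rw [← Subgroup.card_map_of_injective S.subtype_injective, hmapc, hZc]
  have hcomm_le : commutator ↥S ≤ Subgroup.center ↥S := by
    rw [commutator_def, Subgroup.commutator_le]
    intro g₁ _ g₂ _
    rw [hcenter]
    exact hcommQ _ (hSQ g₁.2) _ (hSQ g₂.2)
  have hcomm_ne : commutator ↥S ≠ ⊥ := by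
    intro hbot
    obtain ⟨x, hx, y, hy, hxy⟩ := hna
    have h1 : ⁅(⟨x, hx⟩ : ↥S), (⟨y, hy⟩ : ↥S)⁆ ∈ commutator ↥S := by
      rw [commutator_def]
      exact Subgroup.commutator_mem_commutator (Subgroup.mem_top _) (Subgroup.mem_top _)
    rw [hbot, Subgroup.mem_bot] at h1
    have h2 : x * y * x⁻¹ * y⁻¹ = 1 := congrArg Subtype.val h1
    apply hxy
    rw [mul_inv_eq_one, mul_inv_eq_iff_eq_mul] at h2
    exact h2
  have hcomm_eq : commutator ↥S = Subgroup.center ↥S := by
    have h1 : Nat.card (commutator ↥S) ∣ Nat.card (Subgroup.center ↥S) :=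
      Subgroup.card_dvd_of_le hcomm_le
    rw [hcardc] at h1
    rcases (Nat.dvd_prime Nat.prime_two).1 h1 with h2 | h2
    · exact absurd (Subgroup.eq_bot_of_card_eq _ h2) hcomm_ne
    · exact Subgroup.eq_of_le_of_card_ge hcomm_le (by rw [hcardc, h2])
  refine ⟨⟨hpS, ?_, hcomm_eq⟩, hcardc⟩
  apply le_antisymm
  · have h1 := Cfsg.Agent.Lib.Helper4.frattini_le_ker_of_elementary (p := 2) Nat.prime_two
      (QuotientGroup.mk' (Subgroup.center ↥S)) ?_ ?_
    · rwa [QuotientGroup.ker_mk'] at h1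
    · intro x y
      rw [← map_mul, ← map_mul]
      show ((x * y : ↥S) : ↥S ⧸ Subgroup.center ↥S) = ((y * x : ↥S) : ↥S ⧸ Subgroup.center ↥S)
      rw [QuotientGroup.eq, hcenter]
      have := hcommQ _ (hSQ y⁻¹.2) _ (hSQ x⁻¹.2)
      have e : (((x * y)⁻¹ * (y * x) : ↥S) : G) =
          ((y⁻¹ : ↥S) : G) * ((x⁻¹ : ↥S) : G) * ((y⁻¹ : ↥S) : G)⁻¹ * ((x⁻¹ : ↥S) : G)⁻¹ := by
        simp only [Subgroup.coe_mul, InvMemClass.coe_inv]
        group
      rw [e]
      exact this
    · intro x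
      rw [← map_pow]
      show ((x ^ 2 : ↥S) : ↥S ⧸ Subgroup.center ↥S) = 1
      rw [QuotientGroup.eq_one_iff, hcenter]
      exact hsqQ _ (hSQ x.2)
  · rw [← hcomm_eq]
    exact Cfsg.Agent.Lib.Lead.commutator_le_frattini_of_pGroup hpS

/-- odd-order automorphism groups of a large extraspecial 2-group -/
theorem es_odd_decomp5 {G : Type u} [Group G] [Finite G] (Q : Subgroup G)
    (hQ : Cfsg.IsLargeExtraspecial Q) (A : Subgroup G)
    (hA : A ≤ Subgroup.normalizer (Q : Set G)) (hAodd : Odd (Nat.card ↥A)) (hA1 : A ≠ ⊥) :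
    (Q ⊓ Subgroup.centralizer (A : Set G)) ⊔ ⁅Q, A⁆ = Q ∧
    (∀ x ∈ Q ⊓ Subgroup.centralizer (A : Set G), ∀ y ∈ ⁅Q, A⁆, x * y = y * x) ∧
    Cfsg.IsExtraspecial 2 ↥⁅Q, A⁆ ∧
    (Q ⊓ Subgroup.centralizer (A : Set G) = ((Subgroup.center ↥Q).map Q.subtype) ∨
      Cfsg.IsExtraspecial 2 ↥(Q ⊓ Subgroup.centralizer (A : Set G))) := by
  classical
  haveI : Fact (Nat.Prime 2) := ⟨Nat.prime_two⟩
  obtain ⟨hes, hCQ, hnorm, hodd⟩ := hQ
  obtain ⟨Z, hZdef⟩ : ∃ Z : Subgroup G, Z = (Subgroup.center ↥Q).map Q.subtype := ⟨_, rfl⟩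
  rw [← hZdef] at hCQ
  rw [← hZdef]
  have hes' := hes
  obtain ⟨⟨hpg, hfrat, hcomm⟩, hZcard⟩ := hes'
  have hZc : Nat.card Z = 2 := by
    rw [hZdef, Subgroup.card_map_of_injective Q.subtype_injective, hZcard]
  have hZQ : Z ≤ Q := by
    rw [hZdef]
    rintro _ ⟨x, _, rfl⟩
    exact x.2
  have hmemZ : ∀ x : ↥Q, x ∈ Subgroup.center ↥Q → (x : G) ∈ Z := by
    intro x hx
    rw [hZdef]
    exact ⟨x, hx, rfl⟩
  have hcommQ : ∀ x ∈ Q, ∀ y ∈ Q, x * y * x⁻¹ * y⁻¹ ∈ Z := by
    intro x hx y hy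
    have h1 : ⁅(⟨x, hx⟩ : ↥Q), (⟨y, hy⟩ : ↥Q)⁆ ∈ commutator ↥Q := by
      rw [commutator_def]
      exact Subgroup.commutator_mem_commutator (Subgroup.mem_top _) (Subgroup.mem_top _)
    rw [hcomm] at h1
    exact hmemZ _ h1
  have hZcentral : ∀ c ∈ Z, ∀ y ∈ Q, y * c = c * y := by
    intro c hc y hy
    rw [← hCQ, Subgroup.mem_centralizer_iff] at hc
    exact hc y hy
  -- the nonidentity element of Z
  obtain ⟨z, hz1, hzu⟩ := (Nat.card_eq_two_iff' (1 : ↥Z)).1 hZc
  have hZdich : ∀ c ∈ Z, c = 1 ∨ c = (z : G) := by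
    intro c hc
    by_cases h : c = 1
    · exact Or.inl h
    · right
      have h1 : (⟨c, hc⟩ : ↥Z) ≠ 1 := fun h' => h (congrArg Subtype.val h')
      exact congrArg Subtype.val (hzu _ h1)
  -- A centralizes Z
  have hAZ : ∀ a ∈ A, ∀ c ∈ Z, a * c = c * a := by
    intro a ha c hc
    have hconj : ∀ c' ∈ Z, a * c' * a⁻¹ ∈ Z := by
      intro c' hc'
      rw [← hCQ, Subgroup.mem_centralizer_iff]
      intro q hq
      have hq' : a⁻¹ * q * a ∈ Q := by
        have ha' : a⁻¹ ∈ Subgroup.normalizer (Q : Set G) :=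
          (Subgroup.normalizer (Q : Set G)).inv_mem (hA ha)
        have := (Subgroup.mem_normalizer_iff.mp ha' q).1 hq
        rwa [inv_inv] at this
      have h1 := hZcentral c' hc' _ hq'
      calc q * (a * c' * a⁻¹) = a * ((a⁻¹ * q * a) * c') * a⁻¹ := by group
        _ = a * (c' * (a⁻¹ * q * a)) * a⁻¹ := by rw [h1]
        _ = a * c' * a⁻¹ * q := by group
    rcases hZdich c hc with h | h
    · rw [h, mul_one, one_mul]
    · have h2 := hconj c hc
      rcases hZdich _ h2 with h3 | h3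
      · exfalso
        have : c = 1 := by
          have e : c = a⁻¹ * (a * c * a⁻¹) * a := by group
          rw [e, h3]; group
        rw [this] at h
        exact hz1 (Subtype.ext h.symm)
      · rw [← h] at h3
        exact mul_inv_eq_iff_eq_mul.mp h3
  have hcop : (Nat.card A).Coprime (Nat.card Q) := by
    obtain ⟨k, hk⟩ := IsPGroup.iff_card.mp hpg
    rw [hk]
    exact Nat.Coprime.pow_right k (Nat.coprime_two_right.mpr hAodd)
  haveI : Group.IsNilpotent ↥Q := hpg.isNilpotent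
  have hsolv : Group.IsSolvable ↥Q := inferInstance
  have h26 := Cfsg.Agent.S0026.result A Q hA hcop (Or.inr hsolv)
  have h27 := Cfsg.Agent.S0027.result A Q hA hcop (Or.inr hsolv)
  obtain ⟨R, hRdef⟩ : ∃ R : Subgroup G, R = ⁅Q, A⁆ := ⟨_, rfl⟩
  obtain ⟨C, hCdef⟩ : ∃ C : Subgroup G, C = Q ⊓ Subgroup.centralizer (A : Set G) := ⟨_, rfl⟩
  rw [← hRdef, ← hCdef] at h26
  rw [← hRdef] at h27
  rw [← hRdef, ← hCdef]
  have hRQ : R ≤ Q := by
    rw [hRdef]; exact Cfsg.Agent.Lib.Lead.commutator_le_of_le_normalizer Q A hA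
  have hCQ' : C ≤ Q := by rw [hCdef]; exact inf_le_left
  have hCA : ∀ x ∈ C, ∀ a ∈ A, a * x = x * a := by
    intro x hx a ha
    rw [hCdef] at hx
    exact (Subgroup.mem_centralizer_iff.mp hx.2) a ha
  -- C commutes with R
  have hcomm2 : ∀ x ∈ C, ∀ y ∈ R, x * y = y * x := by
    intro x hx
    have hle : R ≤ Subgroup.centralizer ({x} : Set G) := by
      rw [hRdef, Subgroup.commutator_le]
      intro q hq a ha
      rw [Subgroup.mem_centralizer_singleton_iff, commutatorElement_def]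
      obtain ⟨c, hcdef⟩ : ∃ c : G, c = x * q * x⁻¹ * q⁻¹ := ⟨_, rfl⟩
      have hcZ : c ∈ Z := by rw [hcdef]; exact hcommQ x (hCQ' hx) q hq
      have h1 : x * q * x⁻¹ = c * q := by rw [hcdef]; group
      have h2 : x * a * x⁻¹ = a := by
        rw [← hCA x hx a ha]; group
      have hcq : Commute c q := (hZcentral c hcZ q hq).symm
      have hca : Commute c a := (hAZ a ha c hcZ).symm
      have hc3 : Commute c (q * a * q⁻¹) := (hcq.mul_right hca).mul_right hcq.inv_right
      have h3 : x * (q * a * q⁻¹ * a⁻¹) * x⁻¹ = q * a * q⁻¹ * a⁻¹ := by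
        calc x * (q * a * q⁻¹ * a⁻¹) * x⁻¹
            = (x * q * x⁻¹) * (x * a * x⁻¹) * (x * q * x⁻¹)⁻¹ * (x * a * x⁻¹)⁻¹ := by group
          _ = (c * q) * a * (c * q)⁻¹ * a⁻¹ := by rw [h1, h2]
          _ = c * (q * a * q⁻¹) * c⁻¹ * a⁻¹ := by group
          _ = (q * a * q⁻¹) * c * c⁻¹ * a⁻¹ := by rw [hc3.eq]
          _ = q * a * q⁻¹ * a⁻¹ := by group
      have h4 := mul_inv_eq_iff_eq_mul.mp h3
      exact h4.symm
    intro y hy
    have := hle hy
    rw [Subgroup.mem_centralizer_singleton_iff] at this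
    exact this.symm
  -- an element commuting with R and C lies in Z
  have hcentQ : ∀ x : G, (∀ y ∈ R, y * x = x * y) → (∀ y ∈ C, y * x = x * y) → x ∈ Z := by
    intro x hxR hxC
    rw [← hCQ, Subgroup.mem_centralizer_iff]
    have hle : R ⊔ C ≤ Subgroup.centralizer ({x} : Set G) := by
      apply sup_le
      · intro y hy
        rw [Subgroup.mem_centralizer_singleton_iff]
        exact hxR y hy
      · intro y hy
        rw [Subgroup.mem_centralizer_singleton_iff]
        exact hxC y hy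
    rw [h26] at hle
    intro q hq
    have := hle hq
    rw [Subgroup.mem_centralizer_singleton_iff] at this
    exact this
  have hZC : Z ≤ C := by
    intro c hc
    rw [hCdef]
    exact ⟨hZQ hc, Subgroup.mem_centralizer_iff.mpr (fun a ha => hAZ a ha c hc)⟩
  have hRne : R ≠ ⊥ := by
    intro hbot
    apply hA1
    have hAZ' : A ≤ Z := by
      intro a ha
      rw [← hCQ, Subgroup.mem_centralizer_iff]
      intro q hq
      have h1 : ⁅q, a⁆ ∈ R := by
        rw [hRdef]; exact Subgroup.commutator_mem_commutator hq ha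
      rw [hbot, Subgroup.mem_bot, commutatorElement_def] at h1
      rw [mul_inv_eq_one, mul_inv_eq_iff_eq_mul] at h1
      exact h1
    have h2 : Nat.card A ∣ 2 := by
      rw [← hZc]; exact Subgroup.card_dvd_of_le hAZ'
    rcases (Nat.dvd_prime Nat.prime_two).1 h2 with h3 | h3
    · exact Subgroup.eq_bot_of_card_eq _ h3
    · exfalso
      rw [h3] at hAodd
      exact absurd hAodd (by decide)
  have hZR_center : ∀ x : G, x ∈ R → (∀ y ∈ R, y * x = x * y) → x ∈ Z := by
    intro x hx hxR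
    apply hcentQ x hxR
    intro y hy
    exact hcomm2 y hy x hx
  have hZC_center : ∀ x : G, x ∈ C → (∀ y ∈ C, y * x = x * y) → x ∈ Z := by
    intro x hx hxC
    apply hcentQ x _ hxC
    intro y hy
    exact (hcomm2 x hx y hy).symm
  have hpR : IsPGroup 2 ↥R :=
    hpg.of_injective (Subgroup.inclusion hRQ) (Subgroup.inclusion_injective hRQ)
  have hZR : Z ≤ R := by
    haveI : Nontrivial ↥R := (Subgroup.nontrivial_iff_ne_bot R).mpr hRne
    have h1 := hpR.bot_lt_center
    obtain ⟨x, hx, hx1⟩ := (SetLike.lt_iff_le_and_exists.mp h1).2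
    have hxZ : (x : G) ∈ Z := by
      apply hZR_center _ x.2
      intro y hy
      exact congrArg Subtype.val (Subgroup.mem_center_iff.mp hx ⟨y, hy⟩)
    have hxne : (x : G) ≠ 1 := by
      intro h
      apply hx1
      rw [Subgroup.mem_bot]
      exact Subtype.ext h
    have hxz : (x : G) = (z : G) := by
      rcases hZdich _ hxZ with h | h
      · exact absurd h hxne
      · exact h
    intro c hc
    rcases hZdich c hc with h | h
    · rw [h]; exact R.one_mem
    · rw [h, ← hxz]; exact x.2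
  have hnaR : ∃ x ∈ R, ∃ y ∈ R, x * y ≠ y * x := by
    by_contra hcon
    push Not at hcon
    have hRZ : R ≤ Z := by
      intro x hx
      apply hZR_center x hx
      intro y hy
      exact hcon y hy x hx
    apply hRne
    rw [← h27, eq_bot_iff, Subgroup.commutator_le]
    intro r hr a ha
    rw [Subgroup.mem_bot, commutatorElement_def, mul_inv_eq_one, mul_inv_eq_iff_eq_mul]
    exact (hAZ a ha r (hRZ hr)).symm
  refine ⟨?_, hcomm2, ?_, ?_⟩
  · rw [sup_comm]; exact h26
  · exact es_sub5 Q R hes hRQ (by rw [← hZdef]; exact hZR_center) (by rw [← hZdef]; exact hZR) hnaR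
  · by_cases hab : ∃ x ∈ C, ∃ y ∈ C, x * y ≠ y * x
    · right
      exact es_sub5 Q C hes hCQ' (by rw [← hZdef]; exact hZC_center) (by rw [← hZdef]; exact hZC)
        hab
    · left
      push Not at hab
      apply le_antisymm
      · intro x hx
        apply hZC_center x hx
        intro y hy
        exact hab y hy x hx
      · exact hZC

end Cfsg.Agent.Lib.Helper5
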