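import Mathlib
import Cfsg.Prelude.Def_Solvable
import Cfsg.Agent.Lib.Lead.FrobConj

set_option autoImplicit false

namespace Cfsg.Agent.Lib.Helper5

open scoped Pointwise
open Cfsg.Agent.Lib.Lead

theorem frobKer_char_main5 {L : Type*} [Group L] [Finite L]
    (H : Subgroup L) (hH : Cfsg.IsFrobeniusComplement H)
    (K : Subgroup L) (hK : (K : Set L) = Cfsg.frobeniusKernel H) :
    K.Characteristic ∧ ∀ N : Subgroup L, N.Normal → K ≤ N ∨ N ≤ K := by
  have hmemK : ∀ x, x ∈ K ↔ (x = 1 ∨ ∀ g : L, x ∉ MulAut.conj g • H) := by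
    intro x
    rw [← SetLike.mem_coe, hK]
    rfl
  have hKn : K.Normal := by
    constructor
    intro x hx g
    rw [hmemK] at hx ⊢
    rcases hx with rfl | hx
    · left; simp
    · right
      intro g' hg'
      apply hx (g⁻¹ * g')
      rw [mem_conj_smul] at hg' ⊢
      have h1 : (g⁻¹ * g')⁻¹ * x * (g⁻¹ * g') = g'⁻¹ * (g * x * g⁻¹) * g' := by group
      rw [h1]; exact hg'
  have hKH : K ⊓ H = ⊥ := by
    rw [eq_bot_iff]
    intro x hx
    rw [Subgroup.mem_inf, hmemK] at hx
    rw [Subgroup.mem_bot]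
    rcases hx.1 with h | h
    · exact h
    · exfalso
      apply h 1
      rw [mem_conj_smul]
      simpa using hx.2
  have hdich : ∀ N : Subgroup L, N.Normal → K ≤ N ∨ N ≤ K := by
    intro N hN
    exact (frob_normal_dichotomy H hH K hK hKH N).symm
  refine ⟨?_, hdich⟩
  rw [Subgroup.characteristic_iff_map_le]
  intro ϕ
  have hn : (K.map ϕ.toMonoidHom).Normal := hKn.map _ ϕ.surjective
  rcases hdich _ hn with h | h
  · have hc : Nat.card (K.map ϕ.toMonoidHom) = Nat.card K :=
      Subgroup.card_map_of_injective ϕ.injective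
    exact (Subgroup.eq_of_le_of_card_ge h hc.le).ge
  · exact h

end Cfsg.Agent.Lib.Helper5
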