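import Mathlib
import Cfsg.Prelude.Def_BrauerPairs
import Cfsg.Prelude.Def_Transfer
import Cfsg.Agent.S4663
import Cfsg.Agent.Lib.Lead.PNilp
import Cfsg.Agent.Lib.Lead.CharRing
import Cfsg.Agent.Lib.Lead.CharBurnside
import Cfsg.Agent.Lib.Lead.BlockAux

set_option autoImplicit false

namespace Cfsg.Agent.Lib.Helper5

open Cfsg.Agent.Lib.Lead

universe u

/-- conjugation by an element normalizing `C` preserves the principal block of `C` -/
theorem stab_principal5 {G : Type u} [Group G] (M : Ideal Cfsg.AlgInt)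
    (C : Subgroup G) (x : G) (hx : x ∈ Subgroup.normalizer (C : Set G)) :
    Cfsg.StabilizesBlock C (Cfsg.principalBlock M C) x := by
  classical
  refine ⟨hx, ?_⟩
  rw [Subgroup.mem_normalizer_iff] at hx
  have hmem : ∀ k : C, x⁻¹ * (k : G) * x ∈ C := by
    intro k
    apply (hx _).mpr
    have e : x * (x⁻¹ * (k : G) * x) * x⁻¹ = (k : G) := by group
    rw [e]
    exact k.2
  have hmem' : ∀ k : C, x * (k : G) * x⁻¹ ∈ C := fun k => (hx _).mp k.2
  obtain ⟨φ, hφ⟩ : ∃ φ : C →* C, ∀ k : C, ((φ k : C) : G) = x⁻¹ * (k : G) * x :=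
    ⟨{ toFun := fun k => ⟨x⁻¹ * (k : G) * x, hmem k⟩
       map_one' := by
         apply Subtype.ext
         show x⁻¹ * ((1 : C) : G) * x = ((1 : C) : G)
         rw [Subgroup.coe_one]
         group
       map_mul' := by
         intro a b
         apply Subtype.ext
         show x⁻¹ * ((a * b : C) : G) * x = (x⁻¹ * (a : G) * x) * (x⁻¹ * (b : G) * x)
         rw [Subgroup.coe_mul]
         group }, fun _ => rfl⟩
  have hφsurj : Function.Surjective φ := by
    intro k
    refine ⟨⟨x * (k : G) * x⁻¹, hmem' k⟩, ?_⟩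
    apply Subtype.ext
    rw [hφ]
    show x⁻¹ * (x * (k : G) * x⁻¹) * x = (k : G)
    group
  have hφinj : Function.Injective φ := by
    intro a b hab
    have h := congrArg (fun t : C => (t : G)) hab
    simp only [hφ] at h
    apply Subtype.ext
    exact mul_left_cancel (mul_right_cancel h)
  intro χ hχ
  have hχ' : Cfsg.SameBlock M (fun _ : C => (1 : ℂ)) (χ : C → ℂ) := hχ
  have hχ'irr : Cfsg.IsIrrCharacter C ((χ : C → ℂ) ∘ φ) := isIrrCharacter_comp_surj φ hφsurj χ.2
  refine ⟨⟨(χ : C → ℂ) ∘ φ, hχ'irr⟩, ?_, ?_⟩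
  · show Cfsg.SameBlock M (fun _ : C => (1 : ℂ)) ((χ : C → ℂ) ∘ φ)
    intro k
    have h := hχ' (φ k)
    have hidx : (Subgroup.centralizer ({φ k} : Set C)).index
        = (Subgroup.centralizer ({k} : Set C)).index := by
      have hmap : Subgroup.centralizer ({φ k} : Set C)
          = (Subgroup.centralizer ({k} : Set C)).map φ := by
        ext y
        rw [Subgroup.mem_map]
        constructor
        · intro hy
          obtain ⟨z, rfl⟩ := hφsurj y
          refine ⟨z, ?_, rfl⟩
          rw [Subgroup.mem_centralizer_iff] at hy ⊢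
          intro w hw
          rw [Set.mem_singleton_iff] at hw
          rw [hw]
          have h1 := hy (φ k) rfl
          rw [← map_mul, ← map_mul] at h1
          exact hφinj h1
        · rintro ⟨z, hz, rfl⟩
          rw [Subgroup.mem_centralizer_iff] at hz ⊢
          intro w hw
          rw [Set.mem_singleton_iff] at hw
          rw [hw, ← map_mul, ← map_mul, hz k rfl]
      rw [hmap]
      exact Subgroup.index_map_of_bijective ⟨hφinj, hφsurj⟩ _
    unfold Cfsg.centralChar at h ⊢
    rw [hidx] at h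
    have e1 : ((χ : C → ℂ) ∘ φ) 1 = (χ : C → ℂ) 1 := by
      show (χ : C → ℂ) (φ 1) = _
      rw [map_one]
    rw [e1]
    exact h
  · intro k k' hk
    show (χ : C → ℂ) (φ k') = (χ : C → ℂ) k
    have e : φ k' = k := by
      apply Subtype.ext
      rw [hφ, hk]
      group
    rw [e]

/-- `G` has a normal `p`-complement iff its principal `p`-block is nilpotent. -/
theorem pnilp_iff_nilpotent_block5 {G : Type u} [Group G] [Fintype G] (p : ℕ) [Fact p.Prime]
    (M : Ideal Cfsg.AlgInt) (hM : Cfsg.IsPModular p M) :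
    Cfsg.HasNormalPComplement p G ↔ Cfsg.IsNilpotentBlock p M (Cfsg.principalBlock M G) := by
  classical
  have hpb : ∀ (K : Type u) [Group K], Cfsg.IsPBlock M (Cfsg.principalBlock M K) := by
    intro K _
    exact ⟨⟨fun _ => 1, isIrrCharacter_one K⟩, rfl⟩
  constructor
  · rintro ⟨P, N, hNn, hNc⟩
    refine ⟨hpb G, ?_⟩
    intro Q e hBP x hxN _ hreg
    have hQp : IsPGroup p Q := hBP.1.1
    have hxcop : Nat.Coprime (orderOf x) p :=
      ((Nat.Prime.coprime_iff_not_dvd Fact.out).mpr hreg).symm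
    have hxN' : x ∈ N := mem_of_coprime_of_complement (P : Subgroup G) N P.2 hNc x hxcop
    rw [Subgroup.mem_centralizer_iff]
    intro q hq
    have h1 : x * q * x⁻¹ ∈ Q := by
      rw [Subgroup.mem_normalizer_iff] at hxN
      exact (hxN q).mp hq
    have h2 : x * q * x⁻¹ * q⁻¹ ∈ N := by
      have e : x * q * x⁻¹ * q⁻¹ = x * (q * x⁻¹ * q⁻¹) := by group
      rw [e]
      exact N.mul_mem hxN' (hNn.conj_mem _ (N.inv_mem hxN') q)
    have h3 : x * q * x⁻¹ * q⁻¹ ∈ Q := Q.mul_mem h1 (Q.inv_mem hq)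
    have h4 : x * q * x⁻¹ * q⁻¹ = 1 := by
      obtain ⟨j, hj⟩ := hQp ⟨_, h3⟩
      have hj' : (x * q * x⁻¹ * q⁻¹) ^ p ^ j = 1 := by
        have h := congrArg Subtype.val hj
        simpa using h
      have hNcard : ¬ p ∣ Nat.card N := by
        rw [← hNc.index_eq_card]
        exact P.not_dvd_index
      have hd1 : orderOf (x * q * x⁻¹ * q⁻¹) ∣ Nat.card N := by
        have h := orderOf_dvd_natCard (⟨_, h2⟩ : N)
        rwa [Subgroup.orderOf_mk] at h
      have hd2 : orderOf (x * q * x⁻¹ * q⁻¹) ∣ p ^ j := orderOf_dvd_of_pow_eq_one hj'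
      obtain ⟨i, -, hi⟩ := (Nat.dvd_prime_pow Fact.out).mp hd2
      rcases Nat.eq_zero_or_pos i with h0 | hpos
      · rw [h0, pow_zero] at hi
        exact orderOf_eq_one_iff.mp hi
      · exfalso
        apply hNcard
        exact dvd_trans (by rw [hi]; exact dvd_pow_self p hpos.ne') hd1
    calc q * x = (x * q * x⁻¹ * q⁻¹)⁻¹ * (x * q) := by group
      _ = x * q := by rw [h4, inv_one, one_mul]
  · rintro ⟨-, hnil⟩
    obtain ⟨P⟩ : Nonempty (Sylow p G) := inferInstance
    refine ⟨P, ?_⟩
    apply (frobenius_pnilpotent P).mpr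
    intro Q hQP g hgN hgcop
    have hQp : IsPGroup p Q := P.2.to_le hQP
    have hBP : Cfsg.IsBrauerPairOf p M (Cfsg.principalBlock M G) Q
        (Cfsg.principalBlock M (Subgroup.centralizer (Q : Set G))) :=
      (Cfsg.Agent.S4663.result p M hM Q hQp _ (hpb _)).mpr rfl
    apply hnil Q _ hBP g hgN
    · apply stab_principal5 M
      rw [Subgroup.mem_normalizer_iff] at hgN ⊢
      intro h
      constructor
      · intro hh
        rw [Subgroup.mem_centralizer_iff] at hh ⊢
        intro q hq
        have hq' : g⁻¹ * q * g ∈ Q := by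
          apply (hgN _).mpr
          have e : g * (g⁻¹ * q * g) * g⁻¹ = q := by group
          rw [e]
          exact hq
        have hc := hh _ hq'
        calc q * (g * h * g⁻¹) = g * ((g⁻¹ * q * g) * h) * g⁻¹ := by group
          _ = g * (h * (g⁻¹ * q * g)) * g⁻¹ := by rw [hc]
          _ = g * h * g⁻¹ * q := by group
      · intro hh
        rw [Subgroup.mem_centralizer_iff] at hh ⊢
        intro q hq
        have hq' : g * q * g⁻¹ ∈ Q := (hgN q).mp hq
        have hc := hh _ hq'
        have e1 : g * q * g⁻¹ * (g * h * g⁻¹) = g * (q * h) * g⁻¹ := by group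
        have e2 : g * h * g⁻¹ * (g * q * g⁻¹) = g * (h * q) * g⁻¹ := by group
        rw [e1, e2] at hc
        exact mul_left_cancel (mul_right_cancel hc)
    · show ¬ p ∣ orderOf g
      exact (Nat.Prime.coprime_iff_not_dvd Fact.out).mp hgcop.symm

end Cfsg.Agent.Lib.Helper5
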