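import Mathlib
import Cfsg.Prelude.Def_Blocks
import Cfsg.Agent.S0905
import Cfsg.Agent.S0965
import Cfsg.Agent.Lib.Lead.BlockNilp
import Cfsg.Agent.Lib.Lead.BlockAux
import Cfsg.Agent.Lib.Lead.BrauerR2
import Cfsg.Agent.Lib.Lead.CharCenter
import Cfsg.Agent.Lib.Lead.CharInd
import Cfsg.Agent.Lib.Lead.CharInd3
import Cfsg.Agent.Lib.Lead.CharOrtho
import Cfsg.Agent.Lib.Lead.CharComplete
import Cfsg.Agent.Lib.Lead.CharCount
import Cfsg.Agent.Lib.Helper4.PCore

set_option autoImplicit false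

namespace Cfsg.Agent.Lib.Helper5

open Cfsg.Agent.Lib.Lead

open scoped ComplexConjugate

universe u

/-- an irreducible character of `G` lying over a given irreducible character of a subgroup -/
theorem exists_irr_over5 {G : Type u} [Group G] [Fintype G] (N : Subgroup G) [Fintype N]
    (θ : Cfsg.IrrCharacter N) :
    ∃ χ : Cfsg.IrrCharacter G,
      Cfsg.classInner (fun n : N => (χ : G → ℂ) n) (θ : N → ℂ) ≠ 0 := by
  classical
  have hInd : Cfsg.IsCharacter G (Cfsg.indFun N (θ : N → ℂ)) :=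
    isCharacter_indFun N _ (isCharacter_of_isIrrCharacter θ.2)
  have h1 : Cfsg.indFun N (θ : N → ℂ) 1 ≠ 0 := by
    rw [indFun_one]
    obtain ⟨d, hd0, hd⟩ := irr_one θ.2
    rw [hd]
    have hidx : N.index ≠ 0 := Subgroup.index_ne_zero_of_finite
    exact mul_ne_zero (by exact_mod_cast hidx) (by exact_mod_cast hd0)
  obtain ⟨χ, hχ, hne⟩ := exists_constituent hInd h1
  refine ⟨⟨χ, hχ⟩, ?_⟩
  rw [frobenius_reciprocity N _ χ (isClassFunction_of_irr hχ)] at hne
  intro h0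
  have h0' : Cfsg.classInner (fun h : N => χ h) (θ : N → ℂ) = 0 := h0
  apply hne
  rw [← classInner_conj_symm, h0', map_zero]

/-- For a normal `p`-subgroup `Q` and `N = Q C_G(Q)`: every block of `N` induces a block of `G`,
and every block of `G` covering it is induced by it. -/
theorem normal_p_induced5 {G : Type u} [Group G] [Fintype G] (p : ℕ) [Fact p.Prime]
    (M : Ideal Cfsg.AlgInt) (hM : Cfsg.IsPModular p M) (Q : Subgroup G) [hQn : Q.Normal]
    (hQ : IsPGroup p Q) [Fintype ↥(Q ⊔ Subgroup.centralizer (Q : Set G))]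
    (b : Set (Cfsg.IrrCharacter ↥(Q ⊔ Subgroup.centralizer (Q : Set G))))
    (hb : Cfsg.IsPBlock M b) :
    Cfsg.InducedBlockDefined M (Q ⊔ Subgroup.centralizer (Q : Set G)) b ∧
      ∀ B : Set (Cfsg.IrrCharacter G), Cfsg.IsPBlock M B →
        (∃ χ ∈ B, ∃ θ ∈ b, Cfsg.classInner
          (fun n : ↥(Q ⊔ Subgroup.centralizer (Q : Set G)) => (χ : G → ℂ) n)
          (θ : ↥(Q ⊔ Subgroup.centralizer (Q : Set G)) → ℂ) ≠ 0) →
        Cfsg.IsInducedBlock M (Q ⊔ Subgroup.centralizer (Q : Set G)) b B := by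
  classical
  have hM' := hM
  obtain ⟨hp, hMmax, hpM⟩ := hM
  have hMprime : M.IsPrime := hMmax.isPrime
  have hMtop : M ≠ ⊤ := hMprime.ne_top
  haveI hCn : (Subgroup.centralizer (Q : Set G)).Normal := inferInstance
  haveI hNn : (Q ⊔ Subgroup.centralizer (Q : Set G)).Normal := inferInstance
  have hQle : Q ≤ Cfsg.pCore p G := le_sSup ⟨hQn, hQ⟩
  have part2 : ∀ B : Set (Cfsg.IrrCharacter G), Cfsg.IsPBlock M B →
      (∃ χ ∈ B, ∃ θ ∈ b, Cfsg.classInner
        (fun n : ↥(Q ⊔ Subgroup.centralizer (Q : Set G)) => (χ : G → ℂ) n)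
        (θ : ↥(Q ⊔ Subgroup.centralizer (Q : Set G)) → ℂ) ≠ 0) →
      Cfsg.IsInducedBlock M (Q ⊔ Subgroup.centralizer (Q : Set G)) b B := by
    intro B hB hcov
    refine ⟨hb, hB, ?_⟩
    have h965 := (Cfsg.Agent.S0965.result p M hM' (Q ⊔ Subgroup.centralizer (Q : Set G))
      B hB b hb).mp hcov
    intro ξ hξ χ hχ g
    by_cases hg : g ∈ Q ⊔ Subgroup.centralizer (Q : Set G)
    · have h1 := memLocalIdeal_neg_lead (h965 χ hχ ξ hξ ⟨g, hg⟩)
      rw [neg_sub] at h1
      exact h1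
    · have hzero : Cfsg.inducedCentralChar (Q ⊔ Subgroup.centralizer (Q : Set G))
          (ξ : ↥(Q ⊔ Subgroup.centralizer (Q : Set G)) → ℂ) g = 0 := by
        unfold Cfsg.inducedCentralChar
        have hempty : {h : ↥(Q ⊔ Subgroup.centralizer (Q : Set G)) | IsConj g (h : G)} = ∅ := by
          ext h
          simp only [Set.mem_setOf_eq, Set.mem_empty_iff_false, iff_false]
          intro hc
          apply hg
          obtain ⟨t, ht⟩ := isConj_iff.mp hc
          have e : g = t⁻¹ * (h : G) * t⁻¹⁻¹ := by rw [← ht]; group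
          rw [e]
          exact hNn.conj_mem _ h.2 t⁻¹
        rw [hempty, finsum_mem_empty]
      rw [hzero, zero_sub]
      apply memLocalIdeal_neg_lead
      refine centralChar_mem_of_nilp_lead p hMprime hpM g ?_ χ
      refine Cfsg.Agent.S0905.result p (ZMod p) g ?_
      intro x hx hxC
      apply hg
      have hxN : x ∈ Q ⊔ Subgroup.centralizer (Q : Set G) := by
        apply (le_sup_right : Subgroup.centralizer (Q : Set G) ≤ _)
        exact Subgroup.centralizer_le (SetLike.coe_subset_coe.mpr hQle) hxC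
      obtain ⟨t, ht⟩ := isConj_iff.mp hx
      have e : g = t⁻¹ * x * t⁻¹⁻¹ := by rw [← ht]; group
      rw [e]
      exact hNn.conj_mem _ hxN t⁻¹
  refine ⟨?_, part2⟩
  obtain ⟨θ₀, hθ₀⟩ := id hb
  have hθ₀mem : θ₀ ∈ b := by
    rw [hθ₀]
    show Cfsg.SameBlock M _ _
    exact sameBlock_refl_lead hMtop _
  obtain ⟨χ₀, hχ₀⟩ := exists_irr_over5 (Q ⊔ Subgroup.centralizer (Q : Set G)) θ₀
  refine ⟨Cfsg.blockOf M (χ₀ : G → ℂ), part2 _ ⟨χ₀, rfl⟩ ⟨χ₀, ?_, θ₀, hθ₀mem, hχ₀⟩⟩
  show Cfsg.SameBlock M _ _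
  exact sameBlock_refl_lead hMtop _

end Cfsg.Agent.Lib.Helper5
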