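import Mathlib
import Cfsg.Prelude.Def_Blocks
import Cfsg.Agent.S0905
import Cfsg.Agent.S0963
import Cfsg.Agent.S4218
import Cfsg.Agent.Lib.Lead.BlockNilp
import Cfsg.Agent.Lib.Lead.BlockPQuot
import Cfsg.Agent.Lib.Lead.BlockAux
import Cfsg.Agent.Lib.Lead.BrauerR2
import Cfsg.Agent.Lib.Lead.CharArtin
import Cfsg.Agent.Lib.Lead.CharMisc
import Cfsg.Agent.Lib.Lead.CharCenter
import Cfsg.Agent.Lib.Lead.CharInd3
import Cfsg.Agent.Lib.Lead.CharOrtho
import Cfsg.Agent.Lib.Lead.CharCount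
import Cfsg.Agent.Lib.Helper4.PCore

set_option autoImplicit false

namespace Cfsg.Agent.Lib.Helper5

open Cfsg.Agent.Lib.Lead

universe u

/-- A `p`-solvable group with `O_{p'}(G) = 1` has exactly one `p`-block. -/
theorem one_block_of_psolv5 {G : Type u} [Group G] [Finite G] (p : ℕ) [Fact p.Prime]
    (M : Ideal Cfsg.AlgInt) (hM : Cfsg.IsPModular p M) (hsolv : Cfsg.IsPSolvable p G)
    (hcore : Cfsg.pPrimeCore p G = ⊥) (χ ψ : Cfsg.IrrCharacter G) :
    Cfsg.SameBlock M (χ : G → ℂ) (ψ : G → ℂ) := by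
  classical
  haveI : Fintype G := Fintype.ofFinite G
  obtain ⟨hp, hMmax, hpM⟩ := hM
  have hMprime : M.IsPrime := hMmax.isPrime
  have hMtop : M ≠ ⊤ := hMprime.ne_top
  haveI hQn : (Cfsg.pCore p G).Normal := Cfsg.Agent.Lib.Helper4.pCore_normal p G
  have hQp : IsPGroup p (Cfsg.pCore p G) := Cfsg.Agent.Lib.Helper4.pCore_isPGroup p G
  have hcent := Cfsg.Agent.S4218.hh123 hsolv hcore
  obtain ⟨N, hN⟩ : ∃ N : Subgroup G, N = Subgroup.centralizer (Cfsg.pCore p G : Set G) :=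
    ⟨_, rfl⟩
  haveI hNn : N.Normal := by rw [hN]; infer_instance
  haveI : Fintype N := Fintype.ofFinite N
  have hNle : N ≤ Cfsg.pCore p G := by rw [hN]; exact hcent
  have hNp : IsPGroup p N := hQp.to_le hNle
  have hNcomm : ∀ a b : N, a * b = b * a := by
    intro a b
    have ha : (a : G) ∈ Subgroup.centralizer (Cfsg.pCore p G : Set G) := by
      rw [← hN]; exact a.2
    have hb : (b : G) ∈ Cfsg.pCore p G := hNle b.2
    rw [Subgroup.mem_centralizer_iff] at ha
    apply Subtype.ext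
    exact (ha (b : G) hb).symm
  have key : ∀ (χ : Cfsg.IrrCharacter G) (n : N), Cfsg.MemLocalIdeal M
      (Cfsg.centralChar (χ : G → ℂ) (n : G)
        - ∑ᶠ h ∈ {h : N | IsConj (n : G) (h : G)}, (1 : ℂ)) := by
    intro χ n
    have hres : Cfsg.IsCharacter N (fun h : N => (χ : G → ℂ) h) :=
      isCharacter_restrict N (isCharacter_of_isIrrCharacter χ.2)
    have hres1 : (fun h : N => (χ : G → ℂ) h) 1 ≠ 0 := by
      obtain ⟨d, hd0, hd⟩ := irr_one χ.2
      show (χ : G → ℂ) ((1 : N) : G) ≠ 0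
      rw [Subgroup.coe_one, hd]
      exact_mod_cast hd0
    obtain ⟨θ, hθ, hθne⟩ := exists_constituent hres hres1
    have h963 := (Cfsg.Agent.S0963.result N χ ⟨θ, hθ⟩).mp hθne n
    rw [h963]
    have hθ1 : θ 1 = 1 := (commutative_iff_degrees.mp hNcomm) ⟨θ, hθ⟩
    unfold Cfsg.inducedCentralChar
    rw [finsum_mem_eq_finite_toFinset_sum _ (Set.toFinite _),
      finsum_mem_eq_finite_toFinset_sum _ (Set.toFinite _), ← Finset.sum_sub_distrib]
    refine memLocalIdeal_sum_lead hMprime _ _ (fun h _ => ?_)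
    show Cfsg.MemLocalIdeal M (θ h / θ 1 - 1)
    rw [hθ1, div_one]
    obtain ⟨k, hk⟩ := hNp h
    refine root_sub_one_memLocalIdeal_lead p hp hMprime hpM k (θ h) ?_
    have hpow : ∀ m : ℕ, θ (h ^ m) = θ h ^ m := by
      intro m
      induction m with
      | zero => rw [pow_zero, pow_zero, hθ1]
      | succ m ih => rw [pow_succ, pow_succ, linear_char_mul hθ hθ1, ih]
    rw [← hpow, hk, hθ1]
  intro g
  by_cases hg : ∃ x : G, IsConj g x ∧ x ∈ Subgroup.centralizer (Cfsg.pCore p G : Set G)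
  · obtain ⟨x, hx, hxC⟩ := hg
    have hxN : x ∈ N := by rw [hN]; exact hxC
    have hgN : g ∈ N := by
      obtain ⟨t, ht⟩ := isConj_iff.mp hx
      have e : g = t⁻¹ * x * t⁻¹⁻¹ := by rw [← ht]; group
      rw [e]
      exact hNn.conj_mem x hxN t⁻¹
    have h1 := key χ ⟨g, hgN⟩
    have h2 := key ψ ⟨g, hgN⟩
    have h3 := memLocalIdeal_sub_lead hMprime h1 h2
    rw [sub_sub_sub_cancel_right] at h3
    exact h3
  · push_neg at hg
    have hnil := Cfsg.Agent.S0905.result p (ZMod p) g hg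
    exact memLocalIdeal_sub_lead hMprime
      (centralChar_mem_of_nilp_lead p hMprime hpM g hnil χ)
      (centralChar_mem_of_nilp_lead p hMprime hpM g hnil ψ)

end Cfsg.Agent.Lib.Helper5
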