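import Mathlib
import Cfsg.Prelude.Def_KGroupFacts

universe u v

namespace Cfsg.Agent.Lib.Helper5

open scoped commutatorElement

section
variable {Γ : Type u} {G : Type v} [Group Γ] [Group G]

theorem stem_comm_of_zpowers5 (σ : Γ →* G) (hsurj : Function.Surjective σ)
    (hcen : σ.ker ≤ Subgroup.center Γ) (a : G)
    (x y : Γ) (hx : σ x ∈ Subgroup.zpowers a) (hy : σ y ∈ Subgroup.zpowers a) :
    x * y = y * x := by
  obtain ⟨a', ha'⟩ := hsurj a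
  obtain ⟨i, hi⟩ := Subgroup.mem_zpowers_iff.mp hx
  obtain ⟨j, hj⟩ := Subgroup.mem_zpowers_iff.mp hy
  have hw : (a' ^ i)⁻¹ * x ∈ σ.ker := by
    rw [MonoidHom.mem_ker, map_mul, map_inv, map_zpow, ha', hi]; group
  have hw' : (a' ^ j)⁻¹ * y ∈ σ.ker := by
    rw [MonoidHom.mem_ker, map_mul, map_inv, map_zpow, ha', hj]; group
  have c1 := Subgroup.mem_center_iff.mp (hcen hw)
  have c2 := Subgroup.mem_center_iff.mp (hcen hw')
  have hxe : x = a' ^ i * ((a' ^ i)⁻¹ * x) := by group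
  have hye : y = a' ^ j * ((a' ^ j)⁻¹ * y) := by group
  generalize (a' ^ i)⁻¹ * x = w at c1 hxe
  generalize (a' ^ j)⁻¹ * y = w' at c2 hye
  have e1 : a' ^ i * a' ^ j = a' ^ j * a' ^ i := by rw [← zpow_add, ← zpow_add, add_comm]
  rw [hxe, hye]
  calc a' ^ i * w * (a' ^ j * w') = a' ^ i * (w * a' ^ j) * w' := by group
    _ = a' ^ i * (a' ^ j * w) * w' := by rw [← c1 (a' ^ j)]
    _ = (a' ^ i * a' ^ j) * (w * w') := by group
    _ = (a' ^ j * a' ^ i) * (w' * w) := by rw [e1, c2 w]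
    _ = a' ^ j * (a' ^ i * w') * w := by group
    _ = a' ^ j * (w' * a' ^ i) * w := by rw [c2 (a' ^ i)]
    _ = a' ^ j * w' * (a' ^ i * w) := by group

theorem stem_dihedral_like5 (σ : Γ →* G) (hsurj : Function.Surjective σ)
    (hcen : σ.ker ≤ Subgroup.center Γ) (hcomm : σ.ker ≤ commutator Γ)
    (a b : G) (b' : Γ) (hb' : σ b' = b)
    (hcov : ∀ g : G, g ∈ Subgroup.zpowers a ∨ ∃ h ∈ Subgroup.zpowers a, g = h * b)
    (hinv' : a * b * a = b)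
    (z : Γ) (hz : z ∈ σ.ker) :
    ∃ x : Γ, σ x ∈ Subgroup.zpowers a ∧ (σ x) ^ 2 = 1 ∧ z = x * b' * x⁻¹ * b'⁻¹ := by
  have hinv : b * a * b⁻¹ = a⁻¹ := by
    calc b * a * b⁻¹ = a⁻¹ * (a * b * a) * b⁻¹ := by group
      _ = a⁻¹ * b * b⁻¹ := by rw [hinv']
      _ = a⁻¹ := by group
  have hK : ∀ h ∈ Subgroup.zpowers a, b * h * b⁻¹ = h⁻¹ := by
    intro h hh
    obtain ⟨i, rfl⟩ := Subgroup.mem_zpowers_iff.mp hh
    rw [← conj_zpow, hinv, inv_zpow]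
  have hcov2 : ∀ g : Γ, σ g ∈ Subgroup.zpowers a ∨ σ (g * b'⁻¹) ∈ Subgroup.zpowers a := by
    intro g
    rcases hcov (σ g) with h | ⟨h, hh, hg⟩
    · exact Or.inl h
    · right
      rw [map_mul, map_inv, hb', hg]
      have : h * b * b⁻¹ = h := by group
      rw [this]; exact hh
  have hA1 : ∀ x y : Γ, σ x ∈ Subgroup.zpowers a → σ y ∈ Subgroup.zpowers a → x * y = y * x :=
    fun x y hx hy => stem_comm_of_zpowers5 σ hsurj hcen a x y hx hy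
  have hAinv : ∀ x : Γ, σ x ∈ Subgroup.zpowers a → σ x⁻¹ ∈ Subgroup.zpowers a := by
    intro x hx; rw [map_inv]; exact inv_mem hx
  have hAmul : ∀ x y : Γ, σ x ∈ Subgroup.zpowers a → σ y ∈ Subgroup.zpowers a →
      σ (x * y) ∈ Subgroup.zpowers a := by
    intro x y hx hy; rw [map_mul]; exact mul_mem hx hy
  have hAcb : ∀ x : Γ, σ x ∈ Subgroup.zpowers a → σ (b' * x * b'⁻¹) ∈ Subgroup.zpowers a := by
    intro x hx
    rw [map_mul, map_mul, map_inv, hb', hK _ hx]; exact inv_mem hx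
  have hAt : ∀ x : Γ, σ x ∈ Subgroup.zpowers a →
      σ (x * b' * x⁻¹ * b'⁻¹) ∈ Subgroup.zpowers a := by
    intro x hx
    have h1 := hAmul x (b' * x⁻¹ * b'⁻¹) hx (hAcb _ (hAinv x hx))
    have e : x * b' * x⁻¹ * b'⁻¹ = x * (b' * x⁻¹ * b'⁻¹) := by group
    rw [e]; exact h1
  have hI1 : ∀ x y : Γ, σ x ∈ Subgroup.zpowers a → σ y ∈ Subgroup.zpowers a →
      (x * y) * b' * (x * y)⁻¹ * b'⁻¹ = (x * b' * x⁻¹ * b'⁻¹) * (y * b' * y⁻¹ * b'⁻¹) := by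
    intro x y hx hy
    have hc := hA1 (y * b' * y⁻¹ * b'⁻¹) (b' * x⁻¹ * b'⁻¹) (hAt y hy) (hAcb _ (hAinv x hx))
    calc (x * y) * b' * (x * y)⁻¹ * b'⁻¹
        = x * ((y * b' * y⁻¹ * b'⁻¹) * (b' * x⁻¹ * b'⁻¹)) := by group
      _ = x * ((b' * x⁻¹ * b'⁻¹) * (y * b' * y⁻¹ * b'⁻¹)) := by rw [hc]
      _ = (x * b' * x⁻¹ * b'⁻¹) * (y * b' * y⁻¹ * b'⁻¹) := by group
  have hI2 : ∀ x : Γ, σ x ∈ Subgroup.zpowers a →
      (x * b' * x⁻¹ * b'⁻¹)⁻¹ = x⁻¹ * b' * (x⁻¹)⁻¹ * b'⁻¹ := by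
    intro x hx
    have hc := hA1 (b' * x * b'⁻¹) x⁻¹ (hAcb x hx) (hAinv x hx)
    calc (x * b' * x⁻¹ * b'⁻¹)⁻¹ = (b' * x * b'⁻¹) * x⁻¹ := by group
      _ = x⁻¹ * (b' * x * b'⁻¹) := hc
      _ = x⁻¹ * b' * (x⁻¹)⁻¹ * b'⁻¹ := by group
  let C : Subgroup Γ :=
    { carrier := {w | ∃ x : Γ, σ x ∈ Subgroup.zpowers a ∧ w = x * b' * x⁻¹ * b'⁻¹}
      one_mem' := ⟨1, by rw [map_one]; exact one_mem _, by group⟩
      mul_mem' := by
        rintro _ _ ⟨x, hx, rfl⟩ ⟨y, hy, rfl⟩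
        exact ⟨x * y, hAmul x y hx hy, (hI1 x y hx hy).symm⟩
      inv_mem' := by
        rintro _ ⟨x, hx, rfl⟩
        exact ⟨x⁻¹, hAinv x hx, hI2 x hx⟩ }
  have hCmem : ∀ w : Γ, w ∈ C ↔ ∃ x : Γ, σ x ∈ Subgroup.zpowers a ∧ w = x * b' * x⁻¹ * b'⁻¹ :=
    fun w => Iff.rfl
  have hCle : commutator Γ ≤ C := by
    rw [commutator_def, Subgroup.commutator_le]
    have hcase2 : ∀ x g : Γ, σ x ∈ Subgroup.zpowers a → σ (g * b'⁻¹) ∈ Subgroup.zpowers a →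
        ⁅x, g⁆ ∈ C := by
      intro x g hx hg
      rw [hCmem]
      refine ⟨x, hx, ?_⟩
      have hc := hA1 (g * b'⁻¹) (b' * x⁻¹ * b'⁻¹) hg (hAcb _ (hAinv x hx))
      rw [commutatorElement_def]
      calc x * g * x⁻¹ * g⁻¹
          = x * ((g * b'⁻¹) * (b' * x⁻¹ * b'⁻¹)) * (g * b'⁻¹)⁻¹ := by group
        _ = x * ((b' * x⁻¹ * b'⁻¹) * (g * b'⁻¹)) * (g * b'⁻¹)⁻¹ := by rw [hc]
        _ = x * b' * x⁻¹ * b'⁻¹ := by group
    intro g₁ _ g₂ _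
    rcases hcov2 g₁ with h1 | h1 <;> rcases hcov2 g₂ with h2 | h2
    · have : ⁅g₁, g₂⁆ = 1 := by
        rw [commutatorElement_eq_one_iff_commute]; exact hA1 g₁ g₂ h1 h2
      rw [this]; exact C.one_mem
    · exact hcase2 g₁ g₂ h1 h2
    · have := hcase2 g₂ g₁ h2 h1
      have h3 := C.inv_mem this
      rwa [commutatorElement_inv] at h3
    · rw [hCmem]
      refine ⟨(g₁ * b'⁻¹) * (g₂ * b'⁻¹)⁻¹, hAmul _ _ h1 (hAinv _ h2), ?_⟩
      have hc := hA1 ((b' * (g₂ * b'⁻¹) * b'⁻¹) * (b' * (g₁ * b'⁻¹)⁻¹ * b'⁻¹)) (g₂ * b'⁻¹)⁻¹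
        (hAmul _ _ (hAcb _ h2) (hAcb _ (hAinv _ h1))) (hAinv _ h2)
      rw [commutatorElement_def]
      calc g₁ * g₂ * g₁⁻¹ * g₂⁻¹
          = (g₁ * b'⁻¹) * (((b' * (g₂ * b'⁻¹) * b'⁻¹) * (b' * (g₁ * b'⁻¹)⁻¹ * b'⁻¹))
              * (g₂ * b'⁻¹)⁻¹) := by group
        _ = (g₁ * b'⁻¹) * ((g₂ * b'⁻¹)⁻¹ * ((b' * (g₂ * b'⁻¹) * b'⁻¹)
              * (b' * (g₁ * b'⁻¹)⁻¹ * b'⁻¹))) := by rw [hc]
        _ = (g₁ * b'⁻¹) * (g₂ * b'⁻¹)⁻¹ * b' * ((g₁ * b'⁻¹) * (g₂ * b'⁻¹)⁻¹)⁻¹ * b'⁻¹ := by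
            group
  obtain ⟨x, hx, hzx⟩ := (hCmem z).mp (hCle (hcomm hz))
  refine ⟨x, hx, ?_, hzx⟩
  have h1 : σ z = 1 := hz
  rw [hzx, map_mul, map_mul, map_mul, map_inv, map_inv, hb'] at h1
  have h2 := hK (σ x)⁻¹ (inv_mem hx)
  rw [inv_inv] at h2
  calc (σ x) ^ 2 = σ x * (b * (σ x)⁻¹ * b⁻¹) := by rw [h2, pow_two]
    _ = σ x * b * (σ x)⁻¹ * b⁻¹ := by group
    _ = 1 := h1

theorem stem_comm_lift5 (σ : Γ →* G) (hcen : σ.ker ≤ Subgroup.center Γ)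
    (x y b' : Γ) (hxy : σ x = σ y) (hyb : y * b' = b' * y) :
    x * b' * x⁻¹ * b'⁻¹ = 1 := by
  have hw : y⁻¹ * x ∈ σ.ker := by
    rw [MonoidHom.mem_ker, map_mul, map_inv, hxy]; group
  have c := Subgroup.mem_center_iff.mp (hcen hw)
  have hxe : x = y * (y⁻¹ * x) := by group
  generalize y⁻¹ * x = w at c hxe
  rw [hxe]
  calc (y * w) * b' * (y * w)⁻¹ * b'⁻¹ = y * (w * b') * w⁻¹ * y⁻¹ * b'⁻¹ := by group
    _ = y * (b' * w) * w⁻¹ * y⁻¹ * b'⁻¹ := by rw [← c b']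
    _ = (y * b') * y⁻¹ * b'⁻¹ := by group
    _ = (b' * y) * y⁻¹ * b'⁻¹ := by rw [hyb]
    _ = 1 := by group

end

theorem hasCyclicSchurMultiplier_one_of5 {G : Type u} [Group G] [Finite G]
    (h : ∀ (Γ : Type u) [Group Γ] [Finite Γ] (σ : Γ →* G), Cfsg.IsStemExtension σ →
      ∀ z ∈ σ.ker, z = 1) :
    Cfsg.HasCyclicSchurMultiplier G 1 := by
  constructor
  · refine ⟨G, inferInstance, inferInstance, MonoidHom.id G, ⟨Function.surjective_id, ?_, ?_⟩, ?_⟩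
    · rw [MonoidHom.ker_id]; exact bot_le
    · rw [MonoidHom.ker_id]; exact bot_le
    · have h1 : Subsingleton ↥(MonoidHom.id G).ker := by
        rw [MonoidHom.ker_id]; infer_instance
      have h2 : Subsingleton (Multiplicative (ZMod 1)) := by
        change Subsingleton (Fin 1); infer_instance
      exact ⟨{ toFun := fun _ => 1
               invFun := fun _ => 1
               left_inv := fun x => Subsingleton.elim _ _
               right_inv := fun x => Subsingleton.elim _ _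
               map_mul' := fun x y => Subsingleton.elim _ _ }⟩
  · intro Γ _ _ σ hσ
    refine ⟨1, ?_⟩
    intro x
    refine ⟨1, ?_⟩
    have hx : (x : Γ) = 1 := h Γ σ hσ x x.2
    apply Subtype.ext
    simp [hx]

end Cfsg.Agent.Lib.Helper5
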