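import Mathlib
import Cfsg.Agent.Lib.Helper5.StemDih5

universe u v

namespace Cfsg.Agent.Lib.Helper5

open scoped commutatorElement

theorem hom_trivial_of_perfect5 {Γ : Type u} {Γ' : Type v} [Group Γ] [Group Γ']
    (hperf : commutator Γ = ⊤) (f : Γ →* Γ') (hc : ∀ a b : Γ, f a * f b = f b * f a) (γ : Γ) :
    f γ = 1 := by
  have hle : commutator Γ ≤ f.ker := by
    rw [commutator_def, Subgroup.commutator_le]
    intro a _ b _
    rw [MonoidHom.mem_ker, map_commutatorElement, commutatorElement_eq_one_iff_commute]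
    exact hc a b
  have : γ ∈ commutator Γ := by rw [hperf]; exact Subgroup.mem_top γ
  exact hle this

theorem quot_hom_trivial5 {A : Type u} {B : Type v} [Group A] [Group B]
    (hperf : commutator A = ⊤) (φ ψ : A →* B)
    (hcen : ∀ a : A, φ a * (ψ a)⁻¹ ∈ Subgroup.center B) (a : A) : φ a = ψ a := by
  let d : A →* B :=
    { toFun := fun a => φ a * (ψ a)⁻¹
      map_one' := by simp
      map_mul' := by
        intro a b
        have hb := Subgroup.mem_center_iff.mp (hcen b)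
        rw [map_mul, map_mul, mul_inv_rev]
        calc φ a * φ b * ((ψ b)⁻¹ * (ψ a)⁻¹) = φ a * (φ b * (ψ b)⁻¹) * (ψ a)⁻¹ := by group
          _ = (φ b * (ψ b)⁻¹) * φ a * (ψ a)⁻¹ := by rw [hb (φ a)]
          _ = (φ b * (ψ b)⁻¹) * (φ a * (ψ a)⁻¹) := by group
          _ = (φ a * (ψ a)⁻¹) * (φ b * (ψ b)⁻¹) := (hb (φ a * (ψ a)⁻¹)).symm }
  have h1 : d a = 1 := hom_trivial_of_perfect5 hperf d
    (fun x y => Subgroup.mem_center_iff.mp (hcen y) (φ x * (ψ x)⁻¹)) a
  exact mul_inv_eq_one.mp h1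

theorem comm_congr_central5 {Γ : Type u} {G : Type v} [Group Γ] [Group G] (σ : Γ →* G)
    (hcen : σ.ker ≤ Subgroup.center Γ) (p₁ q₁ p₂ q₂ : Γ) (h1 : σ p₁ = σ q₁) (h2 : σ p₂ = σ q₂) :
    ⁅p₁, p₂⁆ = ⁅q₁, q₂⁆ := by
  have hk1 : q₁⁻¹ * p₁ ∈ σ.ker := by rw [MonoidHom.mem_ker, map_mul, map_inv, h1]; group
  have hk2 : q₂⁻¹ * p₂ ∈ σ.ker := by rw [MonoidHom.mem_ker, map_mul, map_inv, h2]; group
  have c1 := Subgroup.mem_center_iff.mp (hcen hk1)
  have c2 := Subgroup.mem_center_iff.mp (hcen hk2)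
  have e1 : p₁ = q₁ * (q₁⁻¹ * p₁) := by group
  have e2 : p₂ = q₂ * (q₂⁻¹ * p₂) := by group
  generalize q₁⁻¹ * p₁ = k₁ at c1 e1
  generalize q₂⁻¹ * p₂ = k₂ at c2 e2
  rw [e1, e2, commutatorElement_def, commutatorElement_def]
  calc q₁ * k₁ * (q₂ * k₂) * (q₁ * k₁)⁻¹ * (q₂ * k₂)⁻¹
      = q₁ * (k₁ * q₂) * (k₂ * k₁⁻¹) * q₁⁻¹ * k₂⁻¹ * q₂⁻¹ := by group
    _ = q₁ * (q₂ * k₁) * (k₂ * k₁⁻¹) * q₁⁻¹ * k₂⁻¹ * q₂⁻¹ := by rw [← c1 q₂]
    _ = q₁ * q₂ * (k₁ * k₂) * k₁⁻¹ * q₁⁻¹ * k₂⁻¹ * q₂⁻¹ := by group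
    _ = q₁ * q₂ * (k₂ * k₁) * k₁⁻¹ * q₁⁻¹ * k₂⁻¹ * q₂⁻¹ := by rw [c2 k₁]
    _ = q₁ * q₂ * (k₂ * q₁⁻¹) * k₂⁻¹ * q₂⁻¹ := by group
    _ = q₁ * q₂ * (q₁⁻¹ * k₂) * k₂⁻¹ * q₂⁻¹ := by rw [← c2 q₁⁻¹]
    _ = q₁ * q₂ * q₁⁻¹ * q₂⁻¹ := by group

theorem perfect_universal_imp5 {G : Type u} {Q : Type v} [Group G] [Group Q] [Finite G]
    (hG : commutator G = ⊤) (π : G →* Q) (hπ : Function.Surjective π)
    (hker : π.ker ≤ Subgroup.center G)
    (hU : ∀ (X : Type u) [Group X] (ξ : X →* Q), Function.Surjective ξ →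
      ξ.ker ≤ Subgroup.center X → ∃ η : G →* X, ξ.comp η = π) :
    Cfsg.HasCyclicSchurMultiplier G 1 := by
  apply hasCyclicSchurMultiplier_one_of5
  intro Γ _ _ σ hσ z hz
  obtain ⟨hsurj, hcen, hcomm⟩ := hσ
  have hΓ : commutator Γ = ⊤ := by
    rw [eq_top_iff]
    intro γ _
    have h1 : σ γ ∈ commutator G := by rw [hG]; exact Subgroup.mem_top _
    have h2 : commutator G = (commutator Γ).map σ := by
      rw [commutator_def, commutator_def, Subgroup.map_commutator, ← MonoidHom.range_eq_map,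
        MonoidHom.range_eq_top.mpr hsurj]
    rw [h2] at h1
    obtain ⟨c, hc, hcσ⟩ := h1
    have h3 : c⁻¹ * γ ∈ σ.ker := by rw [MonoidHom.mem_ker, map_mul, map_inv, hcσ]; group
    have h4 : c * (c⁻¹ * γ) ∈ commutator Γ := mul_mem hc (hcomm h3)
    simpa using h4
  have hcen2 : (π.comp σ).ker ≤ Subgroup.center Γ := by
    intro x hx
    rw [Subgroup.mem_center_iff]
    intro γ
    have hσx : σ x ∈ Subgroup.center G := hker (MonoidHom.mem_ker.mpr (MonoidHom.mem_ker.mp hx))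
    have key : γ = x * γ * x⁻¹ :=
      quot_hom_trivial5 hΓ (MonoidHom.id Γ) (MulAut.conj x).toMonoidHom (by
        intro a
        apply hcen
        rw [MonoidHom.mem_ker]
        show σ (a * (x * a * x⁻¹)⁻¹) = 1
        rw [map_mul, map_inv, map_mul, map_mul, map_inv]
        have hc : σ a * σ x = σ x * σ a := Subgroup.mem_center_iff.mp hσx (σ a)
        rw [← hc]; group) γ
    calc γ * x = (x * γ * x⁻¹) * x := by rw [← key]
      _ = x * γ := by group
  obtain ⟨η, hη⟩ := hU Γ (π.comp σ) (hπ.comp hsurj) hcen2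
  have hση : ∀ g : G, σ (η g) = g := by
    intro g
    exact quot_hom_trivial5 hG (σ.comp η) (MonoidHom.id G) (by
      intro a
      apply hker
      rw [MonoidHom.mem_ker]
      show π (σ (η a) * a⁻¹) = 1
      have h' : π (σ (η a)) = π a := congrArg (fun f : G →* Q => f a) hη
      rw [map_mul, map_inv, h']; group) g
  have hρ : ∀ γ : Γ, γ = η (σ γ) := by
    intro γ
    exact quot_hom_trivial5 hΓ (MonoidHom.id Γ) (η.comp σ) (by
      intro a
      apply hcen
      rw [MonoidHom.mem_ker]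
      show σ (a * (η (σ a))⁻¹) = 1
      rw [map_mul, map_inv, hση]; group) γ
  rw [hρ z, MonoidHom.mem_ker.mp hz, map_one]

theorem perfect_universal_of5 {G : Type u} {Q : Type v} [Group G] [Group Q] [Finite G]
    (hG : commutator G = ⊤) (π : G →* Q)
    (hM : Cfsg.HasCyclicSchurMultiplier G 1)
    (X : Type u) [Group X] (ξ : X →* Q) (hξ : Function.Surjective ξ)
    (hξk : ξ.ker ≤ Subgroup.center X) : ∃ η : G →* X, ξ.comp η = π := by
  let P : Subgroup (G × X) :=
    MonoidHom.eqLocus (π.comp (MonoidHom.fst G X)) (ξ.comp (MonoidHom.snd G X))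
  have hmemP : ∀ (g : G) (x : X), (g, x) ∈ P ↔ π g = ξ x := fun g x => Iff.rfl
  let σP : P →* G := (MonoidHom.fst G X).comp P.subtype
  have hσPsurj : Function.Surjective σP := by
    intro g
    obtain ⟨x, hx⟩ := hξ (π g)
    exact ⟨⟨(g, x), (hmemP g x).mpr hx.symm⟩, rfl⟩
  have hσPcen : σP.ker ≤ Subgroup.center P := by
    intro w hw
    have h1 : (w : G × X).1 = 1 := MonoidHom.mem_ker.mp hw
    have h2 : π (w : G × X).1 = ξ (w : G × X).2 := w.2
    have h3 : (w : G × X).2 ∈ ξ.ker := by rw [MonoidHom.mem_ker, ← h2, h1, map_one]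
    rw [Subgroup.mem_center_iff]
    intro v
    apply Subtype.ext
    apply Prod.ext
    · show (v : G × X).1 * (w : G × X).1 = (w : G × X).1 * (v : G × X).1
      rw [h1, mul_one, one_mul]
    · show (v : G × X).2 * (w : G × X).2 = (w : G × X).2 * (v : G × X).2
      exact Subgroup.mem_center_iff.mp (hξk h3) _
  obtain ⟨s, hs⟩ : ∃ s : G → P, ∀ g, σP (s g) = g :=
    ⟨fun g => (hσPsurj g).choose, fun g => (hσPsurj g).choose_spec⟩
  have hcs : ∀ p₁ p₂ : P, ⁅p₁, p₂⁆ = ⁅s (σP p₁), s (σP p₂)⁆ := by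
    intro p₁ p₂
    exact comm_congr_central5 σP hσPcen p₁ (s (σP p₁)) p₂ (s (σP p₂)) (hs _).symm (hs _).symm
  haveI : Finite (commutatorSet P) := by
    have hsub : commutatorSet P ⊆ Set.range (fun gg : G × G => ⁅s gg.1, s gg.2⁆) := by
      rintro _ ⟨p₁, p₂, rfl⟩
      exact ⟨(σP p₁, σP p₂), (hcs p₁ p₂).symm⟩
    exact Set.finite_coe_iff.mpr (Set.Finite.subset (Set.finite_range _) hsub)
  let σR : (commutator P) →* G := σP.comp (commutator P).subtype
  have hσRsurj : Function.Surjective σR := by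
    intro g
    have h1 : g ∈ commutator G := by rw [hG]; exact Subgroup.mem_top _
    have h2 : commutator G = (commutator P).map σP := by
      rw [commutator_def, commutator_def, Subgroup.map_commutator, ← MonoidHom.range_eq_map,
        MonoidHom.range_eq_top.mpr hσPsurj]
    rw [h2] at h1
    obtain ⟨r, hr, hrσ⟩ := h1
    exact ⟨⟨r, hr⟩, hrσ⟩
  have hstem : Cfsg.IsStemExtension σR := by
    refine ⟨hσRsurj, ?_, ?_⟩
    · intro r hr
      have h1 : (r : P) ∈ σP.ker := MonoidHom.mem_ker.mpr (MonoidHom.mem_ker.mp hr)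
      have h2 := Subgroup.mem_center_iff.mp (hσPcen h1)
      rw [Subgroup.mem_center_iff]
      intro r'
      apply Subtype.ext
      exact h2 (r' : P)
    · have hperf : commutator (commutator P) = ⊤ := by
        rw [eq_top_iff]
        intro r _
        have h1 : (commutator P) ≤ ⁅commutator P, commutator P⁆ := by
          rw [commutator_def, Subgroup.commutator_le]
          intro p₁ _ p₂ _
          obtain ⟨r₁, hr₁⟩ := hσRsurj (σP p₁)
          obtain ⟨r₂, hr₂⟩ := hσRsurj (σP p₂)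
          rw [comm_congr_central5 σP hσPcen p₁ (r₁ : P) p₂ (r₂ : P) hr₁.symm hr₂.symm]
          exact Subgroup.commutator_mem_commutator r₁.2 r₂.2
        have h2 : (r : P) ∈ ⁅commutator P, commutator P⁆ := h1 r.2
        rw [← Subgroup.map_subtype_commutator] at h2
        obtain ⟨r', hr', hrr⟩ := h2
        have : r' = r := Subtype.ext hrr
        rw [← this]; exact hr'
      intro r _
      rw [hperf]; exact Subgroup.mem_top _
  obtain ⟨πz, hπz⟩ := hM.2 (commutator P) σR hstem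
  have hinj : Function.Injective σR := by
    rw [← MonoidHom.ker_eq_bot_iff, eq_bot_iff]
    intro r hr
    obtain ⟨t, ht⟩ := hπz ⟨r, hr⟩
    have hss : Subsingleton (Multiplicative (ZMod 1)) := by
      change Subsingleton (Fin 1); infer_instance
    have ht1 : t = 1 := Subsingleton.elim _ _
    rw [ht1, map_one] at ht
    rw [Subgroup.mem_bot]
    exact (congrArg Subtype.val ht).symm
  let e : (commutator P) ≃* G := MulEquiv.ofBijective σR ⟨hinj, hσRsurj⟩
  refine ⟨(MonoidHom.snd G X).comp (P.subtype.comp ((commutator P).subtype.comp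
    e.symm.toMonoidHom)), ?_⟩
  ext g
  have h1 : π (((e.symm g : commutator P) : P) : G × X).1
      = ξ (((e.symm g : commutator P) : P) : G × X).2 := ((e.symm g : commutator P) : P).2
  have h2 : (((e.symm g : commutator P) : P) : G × X).1 = g := e.apply_symm_apply g
  show ξ (((e.symm g : commutator P) : P) : G × X).2 = π g
  rw [← h1, h2]

theorem perfect_universal_iff5 {G : Type u} {Q : Type v} [Group G] [Group Q] [Finite G]
    (hG : Group.IsPerfect G) (π : G →* Q) (hπ : Function.Surjective π)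
    (hker : π.ker ≤ Subgroup.center G) :
    (∀ (X : Type u) [Group X] (ξ : X →* Q), Function.Surjective ξ →
      ξ.ker ≤ Subgroup.center X → ∃ η : G →* X, ξ.comp η = π)
      ↔ Cfsg.HasCyclicSchurMultiplier G 1 :=
  ⟨fun hU => perfect_universal_imp5 hG.commutator_eq_top π hπ hker hU,
   fun hM X _ ξ hξ hξk => perfect_universal_of5 hG.commutator_eq_top π hM X ξ hξ hξk⟩

end Cfsg.Agent.Lib.Helper5
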