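import Mathlib
import Cfsg.Agent.Lib.Helper5.QDLocalA5

set_option autoImplicit false

namespace Cfsg.Agent.Lib.Helper5

/-- computable lift: the endomorphism of `Q₈` sending the standard generators to `P`, `Q` -/
def q8Lift5 (P Q : QuaternionGroup 2) : QuaternionGroup 2 → QuaternionGroup 2
  | QuaternionGroup.a i => P ^ i.val
  | QuaternionGroup.xa i => Q * P ^ i.val

def q8Valid5 (p q : QuaternionGroup 2) : Bool :=
  decide (p * p ≠ 1 ∧ q * q ≠ 1 ∧ q ≠ p ∧ q ≠ p⁻¹)

def q8Mem5 (p q r : QuaternionGroup 2) : Bool := decide (p = r ∨ q = r ∨ p * q = r)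

/-- label of the face `{p, q, pq}` of the octahedron of elements of order `4`, up to sign -/
def q8Label5 (p q : QuaternionGroup 2) : Bool × Bool :=
  (q8Mem5 p q (QuaternionGroup.a 1) == q8Mem5 p q (QuaternionGroup.xa 0),
   q8Mem5 p q (QuaternionGroup.a 1) == q8Mem5 p q (QuaternionGroup.a 1 * QuaternionGroup.xa 0))

def q8Rep5 : Bool × Bool → QuaternionGroup 2 × QuaternionGroup 2
  | (true, true) => (QuaternionGroup.a 1, QuaternionGroup.xa 0)
  | (true, false) => (QuaternionGroup.xa 0, QuaternionGroup.a 1)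
  | (false, false) => (QuaternionGroup.a 1, (QuaternionGroup.xa 0)⁻¹)
  | (false, true) => (QuaternionGroup.a 1, QuaternionGroup.a 1 * QuaternionGroup.xa 0)

theorem q8_label_rep5 : ∀ b : Bool × Bool, q8Label5 (q8Rep5 b).1 (q8Rep5 b).2 = b := by decide

theorem q8_label_wd5 : ∀ P Q p q : QuaternionGroup 2, q8Valid5 P Q = true → q8Valid5 p q = true →
    q8Label5 (q8Lift5 P Q p) (q8Lift5 P Q q) =
      q8Label5 (q8Lift5 P Q (q8Rep5 (q8Label5 p q)).1) (q8Lift5 P Q (q8Rep5 (q8Label5 p q)).2) := by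
  decide

theorem q8_label_inj5 : ∀ P Q : QuaternionGroup 2, q8Valid5 P Q = true →
    (∀ b : Bool × Bool, q8Label5 (q8Lift5 P Q (q8Rep5 b).1) (q8Lift5 P Q (q8Rep5 b).2) = b) →
    P = QuaternionGroup.a 1 ∧ Q = QuaternionGroup.xa 0 := by decide

theorem q8_valid_std5 : q8Valid5 (QuaternionGroup.a 1) (QuaternionGroup.xa 0) = true := by decide

theorem q8_valid_rep5 : ∀ b : Bool × Bool, q8Valid5 (q8Rep5 b).1 (q8Rep5 b).2 = true := by decide

theorem q8_lift_eq5 (α : MulAut (QuaternionGroup 2)) (g : QuaternionGroup 2) :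
    α g = q8Lift5 (α (QuaternionGroup.a 1)) (α (QuaternionGroup.xa 0)) g := by
  rcases g with i | i
  · show α (QuaternionGroup.a i) = (α (QuaternionGroup.a 1)) ^ i.val
    rw [← map_pow, QuaternionGroup.a_one_pow, ZMod.natCast_zmod_val]
  · show α (QuaternionGroup.xa i) = α (QuaternionGroup.xa 0) * (α (QuaternionGroup.a 1)) ^ i.val
    rw [← map_pow, ← map_mul, QuaternionGroup.a_one_pow, ZMod.natCast_zmod_val,
      QuaternionGroup.xa_mul_a, zero_add]

theorem q8_valid_map5 (α : MulAut (QuaternionGroup 2)) (p q : QuaternionGroup 2)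
    (h : q8Valid5 p q = true) : q8Valid5 (α p) (α q) = true := by
  unfold q8Valid5 at h ⊢
  rw [decide_eq_true_eq] at h ⊢
  obtain ⟨h1, h2, h3, h4⟩ := h
  refine ⟨?_, ?_, ?_, ?_⟩
  · rw [← map_mul]; exact fun e => h1 ((map_eq_one_iff α α.injective).1 e)
  · rw [← map_mul]; exact fun e => h2 ((map_eq_one_iff α α.injective).1 e)
  · exact fun e => h3 (α.injective e)
  · rw [← map_inv]; exact fun e => h4 (α.injective e)

/-- the action of `Aut(Q₈)` on the four labels -/
def q8Act5 (α : MulAut (QuaternionGroup 2)) (b : Bool × Bool) : Bool × Bool :=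
  q8Label5 (α (q8Rep5 b).1) (α (q8Rep5 b).2)

theorem q8_act_label5 (α : MulAut (QuaternionGroup 2)) (p q : QuaternionGroup 2)
    (h : q8Valid5 p q = true) : q8Label5 (α p) (α q) = q8Act5 α (q8Label5 p q) := by
  have hPQ := q8_valid_map5 α _ _ q8_valid_std5
  have h1 := q8_label_wd5 _ _ p q hPQ h
  unfold q8Act5
  rw [q8_lift_eq5 α p, q8_lift_eq5 α q, q8_lift_eq5 α (q8Rep5 (q8Label5 p q)).1,
    q8_lift_eq5 α (q8Rep5 (q8Label5 p q)).2]
  exact h1

theorem q8_act_one5 (b : Bool × Bool) : q8Act5 1 b = b := q8_label_rep5 b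

theorem q8_act_mul5 (α β : MulAut (QuaternionGroup 2)) (b : Bool × Bool) :
    q8Act5 (α * β) b = q8Act5 α (q8Act5 β b) := by
  have h1 := q8_act_label5 α _ _ (q8_valid_map5 β _ _ (q8_valid_rep5 b))
  exact h1

/-- S3742: `Aut(Q₈) ≅ S₄` -/
theorem mulAut_q8_equiv5 : Nonempty (MulAut (QuaternionGroup 2) ≃* Equiv.Perm (Fin 4)) := by
  let f : MulAut (QuaternionGroup 2) →* Equiv.Perm (Bool × Bool) :=
    { toFun := fun α =>
        { toFun := q8Act5 α
          invFun := q8Act5 α⁻¹
          left_inv := fun b => by rw [← q8_act_mul5, inv_mul_cancel, q8_act_one5]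
          right_inv := fun b => by rw [← q8_act_mul5, mul_inv_cancel, q8_act_one5] }
      map_one' := by
        ext1 b
        exact q8_act_one5 b
      map_mul' := fun α β => by
        ext1 b
        exact q8_act_mul5 α β b }
  have hinj : Function.Injective f := by
    rw [injective_iff_map_eq_one]
    intro α hα
    have h1 : ∀ b : Bool × Bool, q8Act5 α b = b := fun b => by
      have h2 := congrArg (fun σ : Equiv.Perm (Bool × Bool) => σ b) hα
      exact h2
    have hPQ := q8_valid_map5 α _ _ q8_valid_std5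
    have h3 := q8_label_inj5 _ _ hPQ (fun b => by
      rw [← q8_lift_eq5 α, ← q8_lift_eq5 α]
      exact h1 b)
    ext g
    rw [q8_lift_eq5 α g, h3.1, h3.2, q8_lift_eq5 1 g]
    rfl
  have hcard : Nat.card (Equiv.Perm (Bool × Bool)) ≤ Nat.card (MulAut (QuaternionGroup 2)) := by
    rw [card_mulAut_q8_5, Nat.card_eq_fintype_card, Fintype.card_perm]
    decide
  have hbij : Function.Bijective f := hinj.bijective_of_nat_card_le hcard
  have e2 : Bool × Bool ≃ Fin 4 := Fintype.equivFinOfCardEq (by decide)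
  exact ⟨(MulEquiv.ofBijective f hbij).trans e2.permCongrHom⟩

end Cfsg.Agent.Lib.Helper5
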