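import Mathlib
import Cfsg.Prelude.Def_KGroupFacts

universe u v

namespace Cfsg.Agent.Lib.Helper5

open scoped commutatorElement

@[ext]
structure Heis5 (m n : ℕ) (φ : ZMod m →+* ZMod n) where
  a : ZMod m
  b : ZMod n
  c : ZMod n

namespace Heis5

variable {m n : ℕ} {φ : ZMod m →+* ZMod n}

instance : Mul (Heis5 m n φ) := ⟨fun x y => ⟨x.a + y.a, x.b + y.b, x.c + y.c + φ x.a * y.b⟩⟩
instance : One (Heis5 m n φ) := ⟨⟨0, 0, 0⟩⟩
instance : Inv (Heis5 m n φ) := ⟨fun x => ⟨-x.a, -x.b, -x.c + φ x.a * x.b⟩⟩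

@[simp] theorem mul_a (x y : Heis5 m n φ) : (x * y).a = x.a + y.a := rfl
@[simp] theorem mul_b (x y : Heis5 m n φ) : (x * y).b = x.b + y.b := rfl
@[simp] theorem mul_c (x y : Heis5 m n φ) : (x * y).c = x.c + y.c + φ x.a * y.b := rfl
@[simp] theorem one_a : (1 : Heis5 m n φ).a = 0 := rfl
@[simp] theorem one_b : (1 : Heis5 m n φ).b = 0 := rfl
@[simp] theorem one_c : (1 : Heis5 m n φ).c = 0 := rfl
@[simp] theorem inv_a (x : Heis5 m n φ) : (x⁻¹).a = -x.a := rfl
@[simp] theorem inv_b (x : Heis5 m n φ) : (x⁻¹).b = -x.b := rfl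
@[simp] theorem inv_c (x : Heis5 m n φ) : (x⁻¹).c = -x.c + φ x.a * x.b := rfl

instance : Group (Heis5 m n φ) :=
  Group.ofLeftAxioms
    (fun x y z => by ext <;> simp <;> ring)
    (fun x => by ext <;> simp)
    (fun x => by ext <;> simp)

instance [NeZero m] [NeZero n] : Finite (Heis5 m n φ) :=
  Finite.of_injective (fun x : Heis5 m n φ => (x.a, x.b, x.c)) (by
    intro x y h
    simp only [Prod.mk.injEq] at h
    exact Heis5.ext h.1 h.2.1 h.2.2)

def proj (m n : ℕ) (φ : ZMod m →+* ZMod n) :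
    Heis5 m n φ →* Multiplicative (ZMod m × ZMod n) where
  toFun x := Multiplicative.ofAdd (x.a, x.b)
  map_one' := rfl
  map_mul' _ _ := rfl

theorem proj_apply (x : Heis5 m n φ) : proj m n φ x = Multiplicative.ofAdd (x.a, x.b) := rfl

theorem mem_ker_proj (x : Heis5 m n φ) : x ∈ (proj m n φ).ker ↔ x.a = 0 ∧ x.b = 0 := by
  rw [MonoidHom.mem_ker, proj_apply]
  constructor
  · intro h
    have h2 : (x.a, x.b) = ((0 : ZMod m), (0 : ZMod n)) := h
    simpa using h2
  · rintro ⟨h1, h2⟩; rw [h1, h2]; rfl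

theorem stem_proj : Cfsg.IsStemExtension (proj m n φ) := by
  refine ⟨?_, ?_, ?_⟩
  · intro y
    exact ⟨⟨(Multiplicative.toAdd y).1, (Multiplicative.toAdd y).2, 0⟩, rfl⟩
  · intro z hz
    rw [mem_ker_proj] at hz
    rw [Subgroup.mem_center_iff]
    intro g
    ext <;> simp [hz.1, hz.2, add_comm]
  · intro z hz
    rw [mem_ker_proj] at hz
    have hcm : z = ⁅(⟨1, 0, 0⟩ : Heis5 m n φ), ⟨0, z.c, 0⟩⁆ := by
      rw [commutatorElement_def]
      ext <;> simp [hz.1, hz.2]
    rw [hcm, commutator_def]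
    exact Subgroup.commutator_mem_commutator (Subgroup.mem_top _) (Subgroup.mem_top _)

def kerHom (m n : ℕ) (φ : ZMod m →+* ZMod n) : Multiplicative (ZMod n) →* Heis5 m n φ where
  toFun k := ⟨0, 0, Multiplicative.toAdd k⟩
  map_one' := rfl
  map_mul' x y := by ext <;> simp

theorem kerHom_injective : Function.Injective (kerHom m n φ) := by
  intro x y h
  exact congrArg Heis5.c h

theorem kerHom_range : (kerHom m n φ).range = (proj m n φ).ker := by
  ext x
  rw [mem_ker_proj, MonoidHom.mem_range]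
  constructor
  · rintro ⟨k, rfl⟩; exact ⟨rfl, rfl⟩
  · rintro ⟨h1, h2⟩
    refine ⟨Multiplicative.ofAdd x.c, ?_⟩
    ext
    · exact h1.symm
    · exact h2.symm
    · rfl

end Heis5

theorem comm4_5 {H : Type u} [Group H] (W Z1 W' Z2 : H) (c1 : ∀ x, Z1 * x = x * Z1)
    (c2 : ∀ x, Z2 * x = x * Z2) (cw : W' * W = W * W') :
    W * Z1 * (W' * Z2) = W' * Z2 * (W * Z1) := by
  calc W * Z1 * (W' * Z2) = W * (Z1 * W') * Z2 := by group
    _ = W * (W' * Z1) * Z2 := by rw [c1 W']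
    _ = (W * W') * (Z1 * Z2) := by group
    _ = (W' * W) * (Z2 * Z1) := by rw [← cw, c1 Z2]
    _ = W' * (W * Z2) * Z1 := by group
    _ = W' * (Z2 * W) * Z1 := by rw [← c2 W]
    _ = W' * Z2 * (W * Z1) := by group

theorem stem_abelian_two_gen5 {Γ : Type u} {G : Type v} [Group Γ] [Group G]
    (σ : Γ →* G) (hG : ∀ x y : G, x * y = y * x)
    (hcen : σ.ker ≤ Subgroup.center Γ) (hcomm : σ.ker ≤ commutator Γ)
    (a' b' : Γ)
    (hgen : ∀ g : Γ, ∃ w ∈ Subgroup.closure ({a', b'} : Set Γ), σ g = σ w) :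
    σ.ker ≤ Subgroup.zpowers (a' * b' * a'⁻¹ * b'⁻¹) := by
  have hcker : a' * b' * a'⁻¹ * b'⁻¹ ∈ σ.ker := by
    rw [MonoidHom.mem_ker, map_mul, map_mul, map_mul, map_inv, map_inv, hG (σ a') (σ b')]
    group
  have hccen := hcen hcker
  generalize hcdef : a' * b' * a'⁻¹ * b'⁻¹ = c at hcker hccen ⊢
  have hNn : (Subgroup.zpowers c).Normal := ⟨fun x hx g => by
    have hxc : x ∈ Subgroup.center Γ := (Subgroup.zpowers_le.mpr hccen) hx
    rw [Subgroup.mem_center_iff] at hxc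
    rw [hxc g, mul_inv_cancel_right]; exact hx⟩
  let q := QuotientGroup.mk' (Subgroup.zpowers c)
  have hqc : q c = 1 := (QuotientGroup.eq_one_iff c).mpr (Subgroup.mem_zpowers c)
  have hab : q a' * q b' = q b' * q a' := by
    have e : a' * b' = c * (b' * a') := by rw [← hcdef]; group
    rw [← map_mul, e, map_mul, hqc, one_mul, map_mul]
  have hz : ∀ z ∈ σ.ker, ∀ x : Γ ⧸ Subgroup.zpowers c, q z * x = x * q z := by
    intro z hzk x
    obtain ⟨h, rfl⟩ := QuotientGroup.mk'_surjective (Subgroup.zpowers c) x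
    have hzc := Subgroup.mem_center_iff.mp (hcen hzk) h
    show q z * q h = q h * q z
    rw [← map_mul, ← map_mul, hzc]
  have h1 : Subgroup.closure ({q a', q b'} : Set (Γ ⧸ Subgroup.zpowers c))
      ≤ Subgroup.centralizer ({q a', q b'} : Set (Γ ⧸ Subgroup.zpowers c)) := by
    rw [Subgroup.closure_le]
    intro x hx
    rw [SetLike.mem_coe, Subgroup.mem_centralizer_iff]
    intro y hy
    rcases hx with rfl | rfl <;> rcases hy with rfl | rfl
    · rfl
    · exact hab.symm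
    · exact hab
    · rfl
  have h2 : Subgroup.closure ({q a', q b'} : Set (Γ ⧸ Subgroup.zpowers c))
      ≤ Subgroup.centralizer
        (Subgroup.closure ({q a', q b'} : Set (Γ ⧸ Subgroup.zpowers c)) : Set _) := by
    rw [Subgroup.closure_le]
    intro x hx
    rw [SetLike.mem_coe, Subgroup.mem_centralizer_iff]
    intro y hy
    exact (Subgroup.mem_centralizer_iff.mp (h1 hy) x hx).symm
  have hmap : ∀ w ∈ Subgroup.closure ({a', b'} : Set Γ),
      q w ∈ Subgroup.closure ({q a', q b'} : Set (Γ ⧸ Subgroup.zpowers c)) := by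
    intro w hw
    have : q w ∈ (Subgroup.closure ({a', b'} : Set Γ)).map q := Subgroup.mem_map_of_mem q hw
    rwa [MonoidHom.map_closure, Set.image_pair] at this
  have hcommQ : ∀ g h : Γ, q g * q h = q h * q g := by
    intro g h
    obtain ⟨w, hw, hgw⟩ := hgen g
    obtain ⟨w', hw', hhw⟩ := hgen h
    have hz1 : w⁻¹ * g ∈ σ.ker := by
      rw [MonoidHom.mem_ker, map_mul, map_inv, hgw]; group
    have hz2 : w'⁻¹ * h ∈ σ.ker := by
      rw [MonoidHom.mem_ker, map_mul, map_inv, hhw]; group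
    have e1 : q g = q w * q (w⁻¹ * g) := by rw [← map_mul]; congr 1; group
    have e2 : q h = q w' * q (w'⁻¹ * h) := by rw [← map_mul]; congr 1; group
    have cw := Subgroup.mem_centralizer_iff.mp (h2 (hmap w hw)) (q w') (hmap w' hw')
    rw [e1, e2]
    exact comm4_5 _ _ _ _ (hz _ hz1) (hz _ hz2) cw
  have hle : commutator Γ ≤ Subgroup.zpowers c := by
    rw [commutator_def, Subgroup.commutator_le]
    intro g₁ _ g₂ _
    rw [← QuotientGroup.eq_one_iff]
    show q ⁅g₁, g₂⁆ = 1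
    rw [commutatorElement_def, map_mul, map_mul, map_mul, map_inv, map_inv, hcommQ g₁ g₂]
    group
  exact fun z hz => hle (hcomm hz)

theorem exists_surj_zmod5 {H : Type u} [Group H] (n : ℕ) (c : H) (hc : c ^ n = 1)
    (hgen : ∀ y : H, y ∈ Subgroup.zpowers c) :
    ∃ π : Multiplicative (ZMod n) →* H, Function.Surjective π := by
  let f : ℤ →+ Additive H := zmultiplesHom (Additive H) (Additive.ofMul c)
  have hf : f (n : ℤ) = 0 := by
    show (n : ℤ) • Additive.ofMul c = 0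
    rw [natCast_zsmul, ← ofMul_pow, hc]; rfl
  refine ⟨AddMonoidHom.toMultiplicativeLeft (ZMod.lift n ⟨f, hf⟩), ?_⟩
  intro y
  obtain ⟨k, hk⟩ := Subgroup.mem_zpowers_iff.mp (hgen y)
  refine ⟨Multiplicative.ofAdd ((k : ℤ) : ZMod n), ?_⟩
  show Additive.toMul (ZMod.lift n ⟨f, hf⟩ ((k : ℤ) : ZMod n)) = y
  rw [ZMod.lift_coe]
  show Additive.toMul ((k : ℤ) • Additive.ofMul c) = y
  rw [← ofMul_zpow, hk]; rfl

theorem schur_zmod_prod5 (m n : ℕ) [NeZero m] [NeZero n] (hnm : n ∣ m) :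
    Cfsg.HasCyclicSchurMultiplier (Multiplicative (ZMod m × ZMod n)) n := by
  constructor
  · refine ⟨Heis5 m n (ZMod.castHom hnm (ZMod n)), inferInstance, inferInstance,
      Heis5.proj m n _, Heis5.stem_proj, ⟨?_⟩⟩
    exact ((MonoidHom.ofInjective Heis5.kerHom_injective).trans
      (MulEquiv.subgroupCongr Heis5.kerHom_range)).symm
  · intro Γ _ _ σ hσ
    obtain ⟨hsurj, hcen, hcomm⟩ := hσ
    obtain ⟨a', ha'⟩ := hsurj (Multiplicative.ofAdd ((1 : ZMod m), (0 : ZMod n)))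
    obtain ⟨b', hb'⟩ := hsurj (Multiplicative.ofAdd ((0 : ZMod m), (1 : ZMod n)))
    have key : ∀ (x : ZMod m) (y : ZMod n),
        (Multiplicative.ofAdd ((1 : ZMod m), (0 : ZMod n))) ^ x.val
          * (Multiplicative.ofAdd ((0 : ZMod m), (1 : ZMod n))) ^ y.val
        = Multiplicative.ofAdd (x, y) := by
      intro x y
      rw [← ofAdd_nsmul, ← ofAdd_nsmul, ← ofAdd_add]
      congr 1
      ext <;> simp
    have hgen : ∀ g : Γ, ∃ w ∈ Subgroup.closure ({a', b'} : Set Γ), σ g = σ w := by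
      intro g
      refine ⟨a' ^ (Multiplicative.toAdd (σ g)).1.val * b' ^ (Multiplicative.toAdd (σ g)).2.val,
        ?_, ?_⟩
      · exact mul_mem (pow_mem (Subgroup.subset_closure (by simp)) _)
          (pow_mem (Subgroup.subset_closure (by simp)) _)
      · rw [map_mul, map_pow, map_pow, ha', hb', key]; rfl
    have hle := stem_abelian_two_gen5 σ (fun x y => mul_comm x y) hcen hcomm a' b' hgen
    have hcker : a' * b' * a'⁻¹ * b'⁻¹ ∈ σ.ker := by
      rw [MonoidHom.mem_ker, map_mul, map_mul, map_mul, map_inv, map_inv, mul_comm (σ a') (σ b')]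
      group
    have hbn : b' ^ n ∈ σ.ker := by
      rw [MonoidHom.mem_ker, map_pow, hb', ← ofAdd_nsmul]
      show Multiplicative.ofAdd _ = Multiplicative.ofAdd 0
      congr 1
      ext <;> simp
    have hbc := Subgroup.mem_center_iff.mp (hcen hbn)
    have hcc := Subgroup.mem_center_iff.mp (hcen hcker)
    have hcn : (a' * b' * a'⁻¹ * b'⁻¹) ^ n = 1 := by
      have e1 : a' * b' * a'⁻¹ = (a' * b' * a'⁻¹ * b'⁻¹) * b' := by group
      have e2 : ((a' * b' * a'⁻¹ * b'⁻¹) * b') ^ n = (a' * b' * a'⁻¹ * b'⁻¹) ^ n * b' ^ n :=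
        Commute.mul_pow (hcc b').symm n
      have e3 : (a' * b' * a'⁻¹) ^ n = a' * b' ^ n * a'⁻¹ := conj_pow
      have e4 : a' * b' ^ n * a'⁻¹ = b' ^ n := by rw [hbc a', mul_inv_cancel_right]
      have e5 : (a' * b' * a'⁻¹ * b'⁻¹) ^ n * b' ^ n = b' ^ n := by rw [← e2, ← e1, e3, e4]
      exact mul_right_cancel (e5.trans (one_mul _).symm)
    apply exists_surj_zmod5 n (⟨a' * b' * a'⁻¹ * b'⁻¹, hcker⟩ : σ.ker)
    · apply Subtype.ext
      rw [Subgroup.coe_pow]; exact hcn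
    · intro y
      obtain ⟨k, hk⟩ := Subgroup.mem_zpowers_iff.mp (hle y.2)
      refine Subgroup.mem_zpowers_iff.mpr ⟨k, Subtype.ext ?_⟩
      rw [Subgroup.coe_zpow]; exact hk

end Cfsg.Agent.Lib.Helper5
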