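import Mathlib
import Cfsg.Agent.Lib.Helper5.SchurZmodProd5
import Cfsg.Agent.S3979

universe u

namespace Cfsg.Agent.Lib.Helper5

open scoped commutatorElement

theorem Heis5.ker_comm_eq5 {m n : ℕ} {φ : ZMod m →+* ZMod n} (z : Heis5 m n φ)
    (h1 : z.a = 0) (h2 : z.b = 0) :
    z = (⟨1, 0, 0⟩ : Heis5 m n φ) * ⟨0, z.c, 0⟩ * (⟨1, 0, 0⟩ : Heis5 m n φ)⁻¹
      * (⟨0, z.c, 0⟩ : Heis5 m n φ)⁻¹ := by
  ext <;> simp [h1, h2]

theorem isCyclic_of_pi_zmod_coprime5 {G : Type u} [Group G] {ι : Type} [Fintype ι] (n : ι → ℕ)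
    (e : G ≃* ((i : ι) → Multiplicative (ZMod (n i))))
    (hcop : Pairwise (Function.onFun Nat.Coprime n)) : IsCyclic G := by
  let e₂ := ZMod.prodEquivPi n hcop
  let F : Multiplicative (ZMod (∏ i, n i)) →* G :=
    { toFun := fun t => e.symm (fun i => Multiplicative.ofAdd (e₂ (Multiplicative.toAdd t) i))
      map_one' := by
        rw [← map_one e.symm]; congr 1; funext i; simp
      map_mul' := by
        intro s t
        rw [← map_mul]; congr 1; funext i
        simp [toAdd_mul, map_add] }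
  have hF : Function.Surjective F := by
    intro g
    refine ⟨Multiplicative.ofAdd (e₂.symm (fun i => Multiplicative.toAdd (e g i))), ?_⟩
    show e.symm (fun i => Multiplicative.ofAdd
      (e₂ (e₂.symm (fun i => Multiplicative.toAdd (e g i))) i)) = g
    rw [RingEquiv.apply_symm_apply]
    exact e.symm_apply_apply g
  exact isCyclic_of_surjective F hF

theorem exists_surj_zmod_sq5 {G : Type u} [Group G] {ι : Type} [DecidableEq ι] (n : ι → ℕ)
    (e : G ≃* ((i : ι) → Multiplicative (ZMod (n i))))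
    (i j : ι) (hij : i ≠ j) (p : ℕ) (hpi : p ∣ n i) (hpj : p ∣ n j) :
    ∃ θ : G →* Multiplicative (ZMod p × ZMod p), Function.Surjective θ := by
  let θ : G →* Multiplicative (ZMod p × ZMod p) :=
    { toFun := fun g => Multiplicative.ofAdd
        (ZMod.castHom hpi (ZMod p) (Multiplicative.toAdd (e g i)),
         ZMod.castHom hpj (ZMod p) (Multiplicative.toAdd (e g j)))
      map_one' := by
        simp only [map_one, Pi.one_apply, toAdd_one, map_zero]; rfl
      map_mul' := by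
        intro g h
        simp only [map_mul, Pi.mul_apply, toAdd_mul, map_add]; rfl }
  refine ⟨θ, ?_⟩
  intro y
  obtain ⟨x', hx'⟩ := ZMod.ringHom_surjective (ZMod.castHom hpi (ZMod p))
    (Multiplicative.toAdd y).1
  obtain ⟨y', hy'⟩ := ZMod.ringHom_surjective (ZMod.castHom hpj (ZMod p))
    (Multiplicative.toAdd y).2
  refine ⟨e.symm (Function.update (Function.update 1 i (Multiplicative.ofAdd x')) j
    (Multiplicative.ofAdd y')), ?_⟩
  show Multiplicative.ofAdd
    (ZMod.castHom hpi (ZMod p) (Multiplicative.toAdd (e (e.symm _) i)),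
     ZMod.castHom hpj (ZMod p) (Multiplicative.toAdd (e (e.symm _) j))) = y
  rw [MulEquiv.apply_symm_apply, Function.update_of_ne hij, Function.update_self,
    Function.update_self, toAdd_ofAdd, toAdd_ofAdd, hx', hy']
  rfl

theorem nontrivial_stem_of_surj5 {G : Type u} [CommGroup G] [Finite G] (p : ℕ) [Fact p.Prime]
    (θ : G →* Multiplicative (ZMod p × ZMod p)) (hθ : Function.Surjective θ) :
    ∃ (Γ : Type u) (_ : Group Γ) (_ : Finite Γ) (σ : Γ →* G),
      Cfsg.IsStemExtension σ ∧ ∃ w ∈ σ.ker, w ≠ 1 := by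
  haveI : NeZero p := ⟨(Fact.out : p.Prime).ne_zero⟩
  let H := Heis5 p p (RingHom.id (ZMod p))
  let pr : H →* Multiplicative (ZMod p × ZMod p) := Heis5.proj p p (RingHom.id (ZMod p))
  let P : Subgroup (G × H) :=
    MonoidHom.eqLocus (θ.comp (MonoidHom.fst G H)) (pr.comp (MonoidHom.snd G H))
  let σ : P →* G := (MonoidHom.fst G H).comp P.subtype
  have hmemP : ∀ (g : G) (x : H), (g, x) ∈ P ↔ θ g = pr x := fun g x => Iff.rfl
  have hprs : Function.Surjective pr :=
    (Heis5.stem_proj (m := p) (n := p) (φ := RingHom.id (ZMod p))).1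
  have hprc := (Heis5.stem_proj (m := p) (n := p) (φ := RingHom.id (ZMod p))).2.1
  have hkerσ : ∀ w : P, w ∈ σ.ker → (w : G × H).1 = 1 ∧ (w : G × H).2 ∈ pr.ker := by
    intro w hw
    have h1 : (w : G × H).1 = 1 := MonoidHom.mem_ker.mp hw
    refine ⟨h1, ?_⟩
    have h2 : θ (w : G × H).1 = pr (w : G × H).2 := w.2
    rw [MonoidHom.mem_ker, ← h2, h1, map_one]
  refine ⟨P, inferInstance, inferInstance, σ, ⟨?_, ?_, ?_⟩, ?_⟩
  · intro g
    obtain ⟨x, hx⟩ := hprs (θ g)
    exact ⟨⟨(g, x), (hmemP g x).mpr hx.symm⟩, rfl⟩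
  · intro w hw
    obtain ⟨h1, h2⟩ := hkerσ w hw
    rw [Subgroup.mem_center_iff]
    intro v
    apply Subtype.ext
    apply Prod.ext
    · show (v : G × H).1 * (w : G × H).1 = (w : G × H).1 * (v : G × H).1
      exact mul_comm _ _
    · show (v : G × H).2 * (w : G × H).2 = (w : G × H).2 * (v : G × H).2
      exact Subgroup.mem_center_iff.mp (hprc h2) _
  · intro w hw
    obtain ⟨h1, h2⟩ := hkerσ w hw
    rw [Heis5.mem_ker_proj] at h2
    obtain ⟨g₁, hg₁⟩ := hθ (pr ⟨1, 0, 0⟩)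
    obtain ⟨g₂, hg₂⟩ := hθ (pr ⟨0, (w : G × H).2.c, 0⟩)
    let v₁ : P := ⟨(g₁, ⟨1, 0, 0⟩), (hmemP _ _).mpr hg₁⟩
    let v₂ : P := ⟨(g₂, ⟨0, (w : G × H).2.c, 0⟩), (hmemP _ _).mpr hg₂⟩
    have hw' : w = ⁅v₁, v₂⁆ := by
      apply Subtype.ext
      apply Prod.ext
      · show (w : G × H).1 = g₁ * g₂ * g₁⁻¹ * g₂⁻¹
        rw [h1, mul_comm g₁ g₂]; group
      · show (w : G × H).2 = (⟨1, 0, 0⟩ : H) * ⟨0, (w : G × H).2.c, 0⟩ * (⟨1, 0, 0⟩ : H)⁻¹
          * (⟨0, (w : G × H).2.c, 0⟩ : H)⁻¹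
        exact Heis5.ker_comm_eq5 _ h2.1 h2.2
    rw [hw', commutator_def]
    exact Subgroup.commutator_mem_commutator (Subgroup.mem_top _) (Subgroup.mem_top _)
  · refine ⟨⟨(1, ⟨0, 0, 1⟩), (hmemP _ _).mpr (by rw [map_one]; rfl)⟩,
      MonoidHom.mem_ker.mpr rfl, ?_⟩
    intro h
    have h3 : ((⟨0, 0, 1⟩ : H)).c = (1 : H).c :=
      congrArg (fun v : P => (v : G × H).2.c) h
    exact one_ne_zero h3

theorem schur_abelian_iff_cyclic5 {G : Type u} [CommGroup G] [Finite G] :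
    Cfsg.HasCyclicSchurMultiplier G 1 ↔ IsCyclic G := by
  constructor
  · intro hG
    by_contra hnc
    obtain ⟨ι, _, n, hn1, ⟨e⟩⟩ := CommGroup.equiv_prod_multiplicative_zmod_of_finite G
    by_cases hcop : Pairwise (Function.onFun Nat.Coprime n)
    · exact hnc (isCyclic_of_pi_zmod_coprime5 n e hcop)
    · unfold Pairwise at hcop
      push Not at hcop
      obtain ⟨i, j, hij, hnot⟩ := hcop
      have hnot' : ¬ Nat.Coprime (n i) (n j) := hnot
      obtain ⟨p, hp, hpi, hpj⟩ := Nat.Prime.not_coprime_iff_dvd.mp hnot'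
      haveI : Fact p.Prime := ⟨hp⟩
      classical
      obtain ⟨θ, hθ⟩ := exists_surj_zmod_sq5 n e i j hij p hpi hpj
      obtain ⟨Γ, _, _, σ, hστ, w, hw, hw1⟩ := nontrivial_stem_of_surj5 p θ hθ
      obtain ⟨π, hπ⟩ := hG.2 Γ σ hστ
      obtain ⟨t, ht⟩ := hπ ⟨w, hw⟩
      have hss : Subsingleton (Multiplicative (ZMod 1)) := by
        change Subsingleton (Fin 1); infer_instance
      have ht1 : t = 1 := Subsingleton.elim _ _
      rw [ht1, map_one] at ht
      exact hw1 (congrArg Subtype.val ht).symm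
  · intro hc
    exact Cfsg.Agent.S3979.result

end Cfsg.Agent.Lib.Helper5
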