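import Mathlib
import Cfsg.Agent.Lib.Helper5.StemDih5

universe u v

namespace Cfsg.Agent.Lib.Helper5

theorem schur_dihedral_odd5 (n : ℕ) (hn : Odd n) :
    Cfsg.HasCyclicSchurMultiplier (DihedralGroup n) 1 := by
  haveI : NeZero n := ⟨by rintro rfl; simp at hn⟩
  apply hasCyclicSchurMultiplier_one_of5
  intro Γ _ _ σ hσ z hz
  obtain ⟨hsurj, hcen, hcomm⟩ := hσ
  obtain ⟨b', hb'⟩ := hsurj (DihedralGroup.sr 0)
  have hrmem : ∀ i : ZMod n,
      DihedralGroup.r i ∈ Subgroup.zpowers (DihedralGroup.r (1 : ZMod n)) := by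
    intro i
    refine Subgroup.mem_zpowers_iff.mpr ⟨(i.val : ℤ), ?_⟩
    rw [zpow_natCast, DihedralGroup.r_one_pow, ZMod.natCast_zmod_val]
  obtain ⟨x, hx, hx2, hzx⟩ := stem_dihedral_like5 σ hsurj hcen hcomm
    (DihedralGroup.r 1) (DihedralGroup.sr 0) b' hb'
    (by
      rintro (i | i)
      · exact Or.inl (hrmem i)
      · right
        refine ⟨DihedralGroup.r (-i), hrmem _, ?_⟩
        rw [DihedralGroup.r_mul_sr]; simp)
    (by simp) z hz
  have h1 : orderOf (σ x) ∣ 2 := orderOf_dvd_of_pow_eq_one hx2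
  have h2 : orderOf (σ x) ∣ n := by
    have := orderOf_dvd_of_mem_zpowers hx
    rwa [DihedralGroup.orderOf_r_one] at this
  have h3 : orderOf (σ x) = 1 := by
    have hg : Nat.gcd 2 n = 1 := Nat.coprime_two_left.mpr hn
    exact Nat.dvd_one.mp (hg ▸ Nat.dvd_gcd h1 h2)
  have h4 : σ x = σ 1 := by rw [map_one]; exact orderOf_eq_one_iff.mp h3
  rw [hzx]
  exact stem_comm_lift5 σ hcen x 1 b' h4 (by group)

theorem schur_quaternion5 (n : ℕ) [NeZero n] :
    Cfsg.HasCyclicSchurMultiplier (QuaternionGroup n) 1 := by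
  apply hasCyclicSchurMultiplier_one_of5
  intro Γ _ _ σ hσ z hz
  obtain ⟨hsurj, hcen, hcomm⟩ := hσ
  obtain ⟨b', hb'⟩ := hsurj (QuaternionGroup.xa 0)
  have hamem : ∀ i : ZMod (2 * n),
      QuaternionGroup.a i ∈ Subgroup.zpowers (QuaternionGroup.a (1 : ZMod (2 * n))) := by
    intro i
    haveI : NeZero (2 * n) := ⟨by have := NeZero.ne n; omega⟩
    refine Subgroup.mem_zpowers_iff.mpr ⟨(i.val : ℤ), ?_⟩
    rw [zpow_natCast, QuaternionGroup.a_one_pow, ZMod.natCast_zmod_val]
  obtain ⟨x, hx, hx2, hzx⟩ := stem_dihedral_like5 σ hsurj hcen hcomm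
    (QuaternionGroup.a 1) (QuaternionGroup.xa 0) b' hb'
    (by
      rintro (i | i)
      · exact Or.inl (hamem i)
      · right
        refine ⟨QuaternionGroup.a (-i), hamem _, ?_⟩
        rw [QuaternionGroup.a_mul_xa]; simp)
    (by simp) z hz
  rw [hzx]
  rcases hsx : σ x with i | i
  · rw [hsx, pow_two, QuaternionGroup.a_mul_a, QuaternionGroup.one_def] at hx2
    have hii : i + i = 0 := QuaternionGroup.a.inj hx2
    have hi : i = 0 ∨ i = (n : ZMod (2 * n)) := by
      haveI : NeZero (2 * n) := ⟨by have := NeZero.ne n; omega⟩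
      have hv : ((i.val + i.val : ℕ) : ZMod (2 * n)) = 0 := by
        push_cast; rw [ZMod.natCast_zmod_val]; exact hii
      rw [ZMod.natCast_eq_zero_iff] at hv
      have hlt := ZMod.val_lt i
      obtain ⟨c, hc⟩ := hv
      have hc01 : c = 0 ∨ c = 1 := by
        rcases c with _ | _ | c
        · left; rfl
        · right; rfl
        · exfalso; nlinarith [Nat.zero_le (n * c)]
      rcases hc01 with rfl | rfl
      · left
        have : i.val = 0 := by omega
        exact (ZMod.val_eq_zero i).mp this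
      · right
        have : i.val = n := by omega
        rw [← ZMod.natCast_zmod_val i, this]
    rcases hi with rfl | rfl
    · exact stem_comm_lift5 σ hcen x 1 b'
        (by rw [hsx, map_one, QuaternionGroup.one_def]) (by group)
    · exact stem_comm_lift5 σ hcen x (b' ^ 2) b'
        (by rw [hsx, map_pow, hb', QuaternionGroup.xa_sq]) (by group)
  · exfalso
    rw [hsx, QuaternionGroup.xa_sq, QuaternionGroup.one_def] at hx2
    have h0 : ((n : ℕ) : ZMod (2 * n)) = 0 := QuaternionGroup.a.inj hx2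
    rw [ZMod.natCast_eq_zero_iff] at h0
    have := Nat.le_of_dvd (Nat.pos_of_ne_zero (NeZero.ne n)) h0
    have := NeZero.ne n
    omega

end Cfsg.Agent.Lib.Helper5
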