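import Mathlib
import Cfsg.Agent.Lib.Helper5.StemDih5

universe u v

namespace Cfsg.Agent.Lib.Helper5

open scoped commutatorElement

theorem stem_comm_congr5 {Γ : Type u} {G : Type v} [Group Γ] [Group G]
    (σ : Γ →* G) (hcen : σ.ker ≤ Subgroup.center Γ)
    (x y b' : Γ) (hxy : σ x = σ y) : x * b' * x⁻¹ * b'⁻¹ = y * b' * y⁻¹ * b'⁻¹ := by
  have hw : y⁻¹ * x ∈ σ.ker := by
    rw [MonoidHom.mem_ker, map_mul, map_inv, hxy]; group
  have c := Subgroup.mem_center_iff.mp (hcen hw)
  have hxe : x = y * (y⁻¹ * x) := by group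
  generalize y⁻¹ * x = w at c hxe
  rw [hxe]
  calc (y * w) * b' * (y * w)⁻¹ * b'⁻¹ = y * (w * b') * w⁻¹ * y⁻¹ * b'⁻¹ := by group
    _ = y * (b' * w) * w⁻¹ * y⁻¹ * b'⁻¹ := by rw [← c b']
    _ = y * b' * y⁻¹ * b'⁻¹ := by group

theorem zmod_double5 (m : ℕ) (hm : m ≠ 0) (i : ZMod (m + m)) (h : i + i = 0) :
    i = 0 ∨ i = ((m : ℕ) : ZMod (m + m)) := by
  haveI : NeZero (m + m) := ⟨by omega⟩
  have hv : ((i.val + i.val : ℕ) : ZMod (m + m)) = 0 := by
    push_cast; rw [ZMod.natCast_zmod_val]; exact h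
  rw [ZMod.natCast_eq_zero_iff] at hv
  have hlt := ZMod.val_lt i
  obtain ⟨c, hc⟩ := hv
  have hc01 : c = 0 ∨ c = 1 := by
    rcases c with _ | _ | c
    · left; rfl
    · right; rfl
    · exfalso; nlinarith [Nat.zero_le (m * c)]
  rcases hc01 with rfl | rfl
  · left
    have : i.val = 0 := by omega
    exact (ZMod.val_eq_zero i).mp this
  · right
    have : i.val = m := by omega
    rw [← ZMod.natCast_zmod_val i, this]

theorem zmod_cast_ker5 (n : ℕ) (hn : n ≠ 0) (i : ZMod (2 * n))
    (h : ZMod.castHom (Dvd.intro_left 2 rfl) (ZMod n) i = 0) :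
    i = 0 ∨ i = ((n : ℕ) : ZMod (2 * n)) := by
  haveI : NeZero (2 * n) := ⟨by omega⟩
  rw [ZMod.castHom_apply, ← ZMod.natCast_val, ZMod.natCast_eq_zero_iff] at h
  have hlt := ZMod.val_lt i
  obtain ⟨c, hc⟩ := h
  have hc01 : c = 0 ∨ c = 1 := by
    rcases c with _ | _ | c
    · left; rfl
    · right; rfl
    · exfalso; nlinarith [Nat.zero_le (n * c)]
  rcases hc01 with rfl | rfl
  · left
    have : i.val = 0 := by omega
    exact (ZMod.val_eq_zero i).mp this
  · right
    have : i.val = n := by omega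
    rw [← ZMod.natCast_zmod_val i, this]

noncomputable def dihedralDoubleFun5 (n : ℕ) : DihedralGroup (2 * n) → DihedralGroup n
  | DihedralGroup.r i => DihedralGroup.r (ZMod.castHom (Dvd.intro_left 2 rfl) (ZMod n) i)
  | DihedralGroup.sr i => DihedralGroup.sr (ZMod.castHom (Dvd.intro_left 2 rfl) (ZMod n) i)

theorem dihedralDoubleFun5_r (n : ℕ) (i : ZMod (2 * n)) :
    dihedralDoubleFun5 n (DihedralGroup.r i)
      = DihedralGroup.r (ZMod.castHom (Dvd.intro_left 2 rfl) (ZMod n) i) := rfl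

theorem dihedralDoubleFun5_sr (n : ℕ) (i : ZMod (2 * n)) :
    dihedralDoubleFun5 n (DihedralGroup.sr i)
      = DihedralGroup.sr (ZMod.castHom (Dvd.intro_left 2 rfl) (ZMod n) i) := rfl

noncomputable def dihedralDouble5 (n : ℕ) : DihedralGroup (2 * n) →* DihedralGroup n where
  toFun := dihedralDoubleFun5 n
  map_one' := by
    rw [DihedralGroup.one_def, dihedralDoubleFun5_r, map_zero, DihedralGroup.one_def]
  map_mul' := by
    rintro (i | i) (j | j)
    · rw [DihedralGroup.r_mul_r, dihedralDoubleFun5_r, dihedralDoubleFun5_r, dihedralDoubleFun5_r,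
        DihedralGroup.r_mul_r, map_add]
    · rw [DihedralGroup.r_mul_sr, dihedralDoubleFun5_r, dihedralDoubleFun5_sr,
        dihedralDoubleFun5_sr, DihedralGroup.r_mul_sr, map_sub]
    · rw [DihedralGroup.sr_mul_r, dihedralDoubleFun5_r, dihedralDoubleFun5_sr,
        dihedralDoubleFun5_sr, DihedralGroup.sr_mul_r, map_add]
    · rw [DihedralGroup.sr_mul_sr, dihedralDoubleFun5_r, dihedralDoubleFun5_sr,
        dihedralDoubleFun5_sr, DihedralGroup.sr_mul_sr, map_sub]

theorem dihedralDouble5_r (n : ℕ) (i : ZMod (2 * n)) :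
    dihedralDouble5 n (DihedralGroup.r i)
      = DihedralGroup.r (ZMod.castHom (Dvd.intro_left 2 rfl) (ZMod n) i) := rfl

theorem dihedralDouble5_sr (n : ℕ) (i : ZMod (2 * n)) :
    dihedralDouble5 n (DihedralGroup.sr i)
      = DihedralGroup.sr (ZMod.castHom (Dvd.intro_left 2 rfl) (ZMod n) i) := rfl

theorem dihedralDouble5_stem (n : ℕ) [NeZero n] (hn : Even n) :
    Cfsg.IsStemExtension (dihedralDouble5 n) ∧ Nat.card (dihedralDouble5 n).ker = 2 := by
  have hn0 : n ≠ 0 := NeZero.ne n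
  have hnn : ((n : ℕ) : ZMod (2 * n)) + ((n : ℕ) : ZMod (2 * n)) = 0 := by
    rw [← Nat.cast_add, ← two_mul, ZMod.natCast_self]
  have hker : ∀ z ∈ (dihedralDouble5 n).ker,
      z = 1 ∨ z = DihedralGroup.r ((n : ℕ) : ZMod (2 * n)) := by
    intro z hz
    rw [MonoidHom.mem_ker] at hz
    rcases z with i | i
    · rw [dihedralDouble5_r, DihedralGroup.one_def] at hz
      have h0 := DihedralGroup.r.inj hz
      rcases zmod_cast_ker5 n hn0 i h0 with rfl | rfl
      · left; rfl
      · right; rfl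
    · rw [dihedralDouble5_sr, DihedralGroup.one_def] at hz
      cases hz
  have hrn : DihedralGroup.r ((n : ℕ) : ZMod (2 * n)) ∈ (dihedralDouble5 n).ker := by
    rw [MonoidHom.mem_ker, dihedralDouble5_r, map_natCast, ZMod.natCast_self]; rfl
  refine ⟨⟨?_, ?_, ?_⟩, ?_⟩
  · rintro (i | i)
    · obtain ⟨j, hj⟩ := ZMod.ringHom_surjective
        (ZMod.castHom (Dvd.intro_left 2 rfl) (ZMod n) : ZMod (2 * n) →+* ZMod n) i
      exact ⟨DihedralGroup.r j, by rw [dihedralDouble5_r, hj]⟩
    · obtain ⟨j, hj⟩ := ZMod.ringHom_surjective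
        (ZMod.castHom (Dvd.intro_left 2 rfl) (ZMod n) : ZMod (2 * n) →+* ZMod n) i
      exact ⟨DihedralGroup.sr j, by rw [dihedralDouble5_sr, hj]⟩
  · intro z hz
    rw [Subgroup.mem_center_iff]
    rcases hker z hz with rfl | rfl
    · intro g; simp
    · rintro (j | j)
      · rw [DihedralGroup.r_mul_r, DihedralGroup.r_mul_r, add_comm]
      · rw [DihedralGroup.sr_mul_r, DihedralGroup.r_mul_sr]
        congr 1
        rw [sub_eq_add_neg]; congr 1
        exact eq_neg_of_add_eq_zero_left hnn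
  · intro z hz
    rcases hker z hz with rfl | rfl
    · exact one_mem _
    · obtain ⟨m, rfl⟩ := hn
      have hcm : DihedralGroup.r (((m + m : ℕ)) : ZMod (2 * (m + m)))
          = ⁅DihedralGroup.r ((m : ℕ) : ZMod (2 * (m + m))), DihedralGroup.sr 0⁆ := by
        rw [commutatorElement_def, DihedralGroup.inv_r, DihedralGroup.inv_sr,
          DihedralGroup.r_mul_sr, DihedralGroup.sr_mul_r, DihedralGroup.sr_mul_sr]
        congr 1
        push_cast; ring
      rw [hcm, commutator_def]
      exact Subgroup.commutator_mem_commutator (Subgroup.mem_top _) (Subgroup.mem_top _)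
  · rw [Nat.card_eq_two_iff]
    refine ⟨1, ⟨_, hrn⟩, ?_, ?_⟩
    · intro h
      have h1 : (1 : DihedralGroup (2 * n)) = DihedralGroup.r ((n : ℕ) : ZMod (2 * n)) :=
        congrArg Subtype.val h
      rw [DihedralGroup.one_def] at h1
      have h2 := DihedralGroup.r.inj h1
      have h3 : ((n : ℕ) : ZMod (2 * n)) = 0 := h2.symm
      rw [ZMod.natCast_eq_zero_iff] at h3
      have := Nat.le_of_dvd (Nat.pos_of_ne_zero hn0) h3
      omega
    · ext y
      simp only [Set.mem_insert_iff, Set.mem_singleton_iff, Set.mem_univ, iff_true]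
      rcases hker y y.2 with h | h
      · left; exact Subtype.ext h
      · right; exact Subtype.ext h

theorem schur_dihedral_even5 (n : ℕ) [NeZero n] (hn : Even n) :
    Cfsg.HasCyclicSchurMultiplier (DihedralGroup n) 2 := by
  haveI : Fact (Nat.Prime 2) := ⟨Nat.prime_two⟩
  have hcard2 : Nat.card (Multiplicative (ZMod 2)) = 2 := by
    show Nat.card (ZMod 2) = 2
    simp
  constructor
  · obtain ⟨hstem, hcard⟩ := dihedralDouble5_stem n hn
    exact ⟨DihedralGroup (2 * n), inferInstance, inferInstance, dihedralDouble5 n, hstem,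
      ⟨mulEquivOfPrimeCardEq hcard hcard2⟩⟩
  · intro Γ _ _ σ hσ
    obtain ⟨hsurj, hcen, hcomm⟩ := hσ
    obtain ⟨m, rfl⟩ := hn
    have hm0 : m ≠ 0 := by have := NeZero.ne (m + m); omega
    obtain ⟨b', hb'⟩ := hsurj (DihedralGroup.sr 0)
    obtain ⟨x₀, hx₀⟩ := hsurj (DihedralGroup.r ((m : ℕ) : ZMod (m + m)))
    have hrmem : ∀ i : ZMod (m + m),
        DihedralGroup.r i ∈ Subgroup.zpowers (DihedralGroup.r (1 : ZMod (m + m))) := by
      intro i
      refine Subgroup.mem_zpowers_iff.mpr ⟨(i.val : ℤ), ?_⟩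
      rw [zpow_natCast, DihedralGroup.r_one_pow, ZMod.natCast_zmod_val]
    have hall : ∀ z ∈ σ.ker, z = 1 ∨ z = x₀ * b' * x₀⁻¹ * b'⁻¹ := by
      intro z hz
      obtain ⟨x, hx, hx2, hzx⟩ := stem_dihedral_like5 σ hsurj hcen hcomm
        (DihedralGroup.r 1) (DihedralGroup.sr 0) b' hb'
        (by
          rintro (i | i)
          · exact Or.inl (hrmem i)
          · right
            refine ⟨DihedralGroup.r (-i), hrmem _, ?_⟩
            rw [DihedralGroup.r_mul_sr]; simp)
        (by simp) z hz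
      obtain ⟨k, hk⟩ := Subgroup.mem_zpowers_iff.mp hx
      rw [DihedralGroup.r_one_zpow] at hk
      rw [← hk, pow_two, DihedralGroup.r_mul_r, DihedralGroup.one_def] at hx2
      have hii := DihedralGroup.r.inj hx2
      rcases zmod_double5 m hm0 _ hii with h | h
      · left
        rw [hzx]
        exact stem_comm_lift5 σ hcen x 1 b'
          (by rw [← hk, h, map_one, DihedralGroup.one_def]) (by group)
      · right
        rw [hzx]
        exact stem_comm_congr5 σ hcen x x₀ b' (by rw [← hk, h, hx₀])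
    by_cases h0 : ∀ z ∈ σ.ker, z = 1
    · refine ⟨1, ?_⟩
      intro y
      exact ⟨1, Subtype.ext (by simp [h0 y y.2])⟩
    · push Not at h0
      obtain ⟨z₁, hz₁, hz₁ne⟩ := h0
      have hz₁eq := (hall z₁ hz₁).resolve_left hz₁ne
      have hcard : Nat.card σ.ker = 2 := by
        rw [Nat.card_eq_two_iff]
        refine ⟨1, ⟨z₁, hz₁⟩, ?_, ?_⟩
        · intro h
          exact hz₁ne (congrArg Subtype.val h).symm
        · ext y
          simp only [Set.mem_insert_iff, Set.mem_singleton_iff, Set.mem_univ, iff_true]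
          rcases hall y y.2 with h | h
          · left; exact Subtype.ext h
          · right; exact Subtype.ext (h.trans hz₁eq.symm)
      exact ⟨(mulEquivOfPrimeCardEq hcard2 hcard).toMonoidHom,
        (mulEquivOfPrimeCardEq hcard2 hcard).surjective⟩

end Cfsg.Agent.Lib.Helper5
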