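import Mathlib
import Cfsg.Prelude.Def_JComponents
import Cfsg.Prelude.Def_Involutions
import Cfsg.Prelude.Def_Amalgam
import Cfsg.Agent.Lib.Helper5.DStarOf
import Cfsg.Agent.Lib.Helper4.Amalgam

set_option autoImplicit false

namespace Cfsg.Agent.Lib.Helper5

universe u

section Straddle

variable {G : Type u} [Group G] [Finite G]

/-- in a strongly embedded subgroup, normalizers of nontrivial 2-subgroups are inside -/
theorem semb_normalizer_le5 (M : Subgroup G) (hSE : Cfsg.IsStronglyEmbedded M)
    (D : Subgroup G) (hD2 : IsPGroup 2 D) (hD1 : D ≠ ⊥) (hDM : D ≤ M) :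
    Subgroup.normalizer (D : Set G) ≤ M := by
  obtain ⟨-, -, hodd⟩ := hSE
  intro x hx
  by_contra hxM
  have h1 := hodd x hxM
  have hle : D ≤ M ⊓ M.map (MulAut.conj x).toMonoidHom := by
    intro d hd
    refine ⟨hDM hd, x⁻¹ * d * x, hDM ?_, ?_⟩
    · have h2 := (Subgroup.mem_normalizer_iff.1 hx (x⁻¹ * d * x))
      apply h2.2
      have : x * (x⁻¹ * d * x) * x⁻¹ = d := by group
      rw [this]; exact hd
    · show x * (x⁻¹ * d * x) * x⁻¹ = d
      group
  have hdvd : Nat.card D ∣ Nat.card ↥(M ⊓ M.map (MulAut.conj x).toMonoidHom) :=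
    Subgroup.card_dvd_of_le hle
  obtain ⟨n, hn⟩ := IsPGroup.iff_card.mp hD2
  have hn0 : n ≠ 0 := by
    rintro rfl
    rw [pow_zero] at hn
    exact hD1 (Subgroup.card_eq_one.1 hn)
  have h2 : 2 ∣ Nat.card ↥(M ⊓ M.map (MulAut.conj x).toMonoidHom) :=
    dvd_trans (by rw [hn]; exact dvd_pow_self 2 hn0) hdvd
  exact (Nat.not_even_iff_odd.2 h1) (even_iff_two_dvd.2 h2)

/-- S2947 -/
theorem semb_iff_straddling5 (hO : Cfsg.pCore 2 G = ⊥) (M : Subgroup G)
    (hM : Cfsg.IsTwoLocal M) :
    Cfsg.IsStronglyEmbedded M ↔ Cfsg.straddlingTwoSubgroups M = ∅ := by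
  constructor
  · intro hSE
    apply Set.eq_empty_iff_forall_notMem.2
    rintro T ⟨hT2, hT1, hTM, L, hL, hTL, hLM⟩
    apply hLM
    obtain ⟨R, hR2, hR1, rfl⟩ := hL
    have hU : IsPGroup 2 ↥(T ⊔ R) := IsPGroup.to_sup_of_normal_right' hT2 hR2 hTL
    have hTU : T ≤ T ⊔ R := le_sup_left
    haveI : Nontrivial ↥(T ⊔ R) := by
      rw [Subgroup.nontrivial_iff_ne_bot]
      intro e
      apply hT1
      rw [e] at hTU
      exact le_bot_iff.1 hTU
    have hcen := hU.center_nontrivial
    obtain ⟨z, hz, hz1⟩ := (Subgroup.nontrivial_iff_exists_ne_one _).1 hcen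
    have hzU : (z : G) ∈ T ⊔ R := z.2
    have hz1' : (z : G) ≠ 1 := fun e => hz1 (Subtype.ext e)
    have hzc : ∀ u ∈ T ⊔ R, u * (z : G) = (z : G) * u := by
      intro u hu
      have := Subgroup.mem_center_iff.1 hz ⟨u, hu⟩
      exact congrArg Subtype.val this
    -- z ∈ M
    have hzM : (z : G) ∈ M := by
      apply semb_normalizer_le5 M hSE T hT2 hT1 hTM
      apply Subgroup.centralizer_le_normalizer
      rw [Subgroup.mem_centralizer_iff]
      intro t ht
      exact hzc t (hTU ht)
    have hD2 : IsPGroup 2 ↥(Subgroup.zpowers (z : G)) := hU.to_le (Subgroup.zpowers_le.2 hzU)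
    have hD1 : Subgroup.zpowers (z : G) ≠ ⊥ := Subgroup.zpowers_ne_bot.2 hz1'
    have hDM : Subgroup.zpowers (z : G) ≤ M := Subgroup.zpowers_le.2 hzM
    have hUM : T ⊔ R ≤ M := by
      intro u hu
      apply semb_normalizer_le5 M hSE _ hD2 hD1 hDM
      apply Subgroup.centralizer_le_normalizer
      rw [Subgroup.mem_centralizer_iff]
      intro d hd
      obtain ⟨k, rfl⟩ := Subgroup.mem_zpowers_iff.1 hd
      exact ((show Commute (z : G) u from (hzc u hu).symm).zpow_left k).eq
    exact semb_normalizer_le5 M hSE R hR2 hR1 (le_trans le_sup_right hUM)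
  · intro hemp
    have hno : ∀ T : Subgroup G, IsPGroup 2 ↥T → T ≠ ⊥ → T ≤ M → ∀ L : Subgroup G,
        Cfsg.IsTwoLocal L → T ≤ L → L ≤ M := by
      intro T hT2 hT1 hTM L hL hTL
      by_contra hLM
      have : T ∈ Cfsg.straddlingTwoSubgroups M := ⟨hT2, hT1, hTM, L, hL, hTL, hLM⟩
      rw [hemp] at this
      exact this
    obtain ⟨Q, hQ2, hQ1, rfl⟩ := hM
    have hQM : Q ≤ Subgroup.normalizer (Q : Set G) := Subgroup.le_normalizer
    refine ⟨?_, ?_, ?_⟩
    · intro htop
      have hn : Q.Normal := Subgroup.normalizer_eq_top_iff.1 htop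
      have := le_pCore5 hn hQ2
      rw [hO] at this
      exact hQ1 (le_bot_iff.1 this)
    · obtain ⟨n, hn⟩ := IsPGroup.iff_card.mp hQ2
      have hn0 : n ≠ 0 := by
        rintro rfl
        rw [pow_zero] at hn
        exact hQ1 (Subgroup.card_eq_one.1 hn)
      exact even_iff_two_dvd.2 (dvd_trans (by rw [hn]; exact dvd_pow_self 2 hn0)
        (Subgroup.card_dvd_of_le hQM))
    · intro g hg
      by_contra hodd
      apply hg
      have heven : 2 ∣ Nat.card ↥(Subgroup.normalizer (Q : Set G) ⊓
          (Subgroup.normalizer (Q : Set G)).map (MulAut.conj g).toMonoidHom) :=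
        even_iff_two_dvd.1 (Nat.not_odd_iff_even.1 hodd)
      obtain ⟨t, ht⟩ := exists_prime_orderOf_dvd_card' 2 heven
      have ht1 : (t : G) ≠ 1 := by
        intro e
        have : t = 1 := Subtype.ext e
        rw [this, orderOf_one] at ht
        omega
      have hT2 : IsPGroup 2 ↥(Subgroup.zpowers (t : G)) := by
        apply IsPGroup.of_card (n := 1)
        rw [Nat.card_zpowers, Subgroup.orderOf_coe, ht, pow_one]
      have hT1 : Subgroup.zpowers (t : G) ≠ ⊥ := Subgroup.zpowers_ne_bot.2 ht1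
      have hTM : Subgroup.zpowers (t : G) ≤ Subgroup.normalizer (Q : Set G) :=
        Subgroup.zpowers_le.2 t.2.1
      have hTL : Subgroup.zpowers (t : G) ≤
          (Subgroup.normalizer (Q : Set G)).map (MulAut.conj g).toMonoidHom :=
        Subgroup.zpowers_le.2 t.2.2
      -- the conjugate is a 2-local
      have hL : Cfsg.IsTwoLocal
          ((Subgroup.normalizer (Q : Set G)).map (MulAut.conj g).toMonoidHom) := by
        refine ⟨Q.map (MulAut.conj g).toMonoidHom, hQ2.map _, ?_,
          Subgroup.map_equiv_normalizer_eq Q (MulAut.conj g)⟩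
        intro e
        apply hQ1
        rw [Subgroup.map_eq_bot_iff_of_injective _ (MulAut.conj g).injective] at e
        exact e
      have hle := hno _ hT2 hT1 hTM _ hL hTL
      have heq : (Subgroup.normalizer (Q : Set G)).map (MulAut.conj g).toMonoidHom =
          Subgroup.normalizer (Q : Set G) := by
        apply Subgroup.eq_of_le_of_card_ge hle
        rw [Subgroup.card_map_of_injective (MulAut.conj g).injective]
      -- O₂(M)
      have hO2 : IsPGroup 2 ↥(Cfsg.pCoreOf 2 (Subgroup.normalizer (Q : Set G))) :=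
        (pCore_isPGroup5 2 ↥(Subgroup.normalizer (Q : Set G))).map _
      have hQO : Q ≤ Cfsg.pCoreOf 2 (Subgroup.normalizer (Q : Set G)) := by
        intro q hq
        have hn : (Q.subgroupOf (Subgroup.normalizer (Q : Set G))).Normal :=
          Subgroup.normal_in_normalizer
        have h2 : IsPGroup 2 ↥(Q.subgroupOf (Subgroup.normalizer (Q : Set G))) :=
          hQ2.comap_subtype
        have := le_pCore5 hn h2
        exact ⟨⟨q, hQM hq⟩, this (Subgroup.mem_subgroupOf.2 hq), rfl⟩
      have hO1 : Cfsg.pCoreOf 2 (Subgroup.normalizer (Q : Set G)) ≠ ⊥ := by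
        intro e
        rw [e] at hQO
        exact hQ1 (le_bot_iff.1 hQO)
      have hOM : Cfsg.pCoreOf 2 (Subgroup.normalizer (Q : Set G)) ≤
          Subgroup.normalizer (Q : Set G) := Subgroup.map_subtype_le _
      have hconj : (Cfsg.pCoreOf 2 (Subgroup.normalizer (Q : Set G))).map
          (MulAut.conj g).toMonoidHom = Cfsg.pCoreOf 2 (Subgroup.normalizer (Q : Set G)) := by
        rw [← Cfsg.Agent.Lib.Helper4.pCoreOf_map_conj, heq]
      have hgN : g ∈ Subgroup.normalizer
          ((Cfsg.pCoreOf 2 (Subgroup.normalizer (Q : Set G)) : Subgroup G) : Set G) := by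
        rw [Subgroup.mem_normalizer_iff]
        intro h
        constructor
        · intro hh
          rw [← hconj]
          exact ⟨h, hh, rfl⟩
        · intro hh
          rw [← hconj] at hh
          obtain ⟨o, ho, hoe⟩ := hh
          have : o = h := by
            have h3 : g * o * g⁻¹ = g * h * g⁻¹ := hoe
            exact mul_left_cancel (mul_right_cancel h3)
          rw [← this]; exact ho
      exact hno _ hO2 hO1 hOM _ ⟨_, hO2, hO1, rfl⟩ Subgroup.le_normalizer hgN

end Straddle

end Cfsg.Agent.Lib.Helper5
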