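import Mathlib
import Cfsg.Agent.Lib.Helper5.PerfectUniv5

universe u v

namespace Cfsg.Agent.Lib.Helper5

open scoped commutatorElement

theorem perfect_of_stem5 {Γ : Type u} {G : Type v} [Group Γ] [Group G]
    (hG : commutator G = ⊤) (σ : Γ →* G) (hσ : Cfsg.IsStemExtension σ) : commutator Γ = ⊤ := by
  obtain ⟨hsurj, hcen, hcomm⟩ := hσ
  rw [eq_top_iff]
  intro γ _
  have h1 : σ γ ∈ commutator G := by rw [hG]; exact Subgroup.mem_top _
  have h2 : commutator G = (commutator Γ).map σ := by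
    rw [commutator_def, commutator_def, Subgroup.map_commutator, ← MonoidHom.range_eq_map,
      MonoidHom.range_eq_top.mpr hsurj]
  rw [h2] at h1
  obtain ⟨c, hc, hcσ⟩ := h1
  have h3 : c⁻¹ * γ ∈ σ.ker := by rw [MonoidHom.mem_ker, map_mul, map_inv, hcσ]; group
  have h4 : c * (c⁻¹ * γ) ∈ commutator Γ := mul_mem hc (hcomm h3)
  simpa using h4

theorem central_of_map_central5 {Γ : Type u} {G : Type v} [Group Γ] [Group G]
    (hΓ : commutator Γ = ⊤) (σ : Γ →* G) (hcen : σ.ker ≤ Subgroup.center Γ)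
    (x : Γ) (hσx : σ x ∈ Subgroup.center G) : x ∈ Subgroup.center Γ := by
  rw [Subgroup.mem_center_iff]
  intro γ
  have key : γ = x * γ * x⁻¹ :=
    quot_hom_trivial5 hΓ (MonoidHom.id Γ) (MulAut.conj x).toMonoidHom (by
      intro a
      apply hcen
      rw [MonoidHom.mem_ker]
      show σ (a * (x * a * x⁻¹)⁻¹) = 1
      rw [map_mul, map_inv, map_mul, map_mul, map_inv]
      have hc : σ a * σ x = σ x * σ a := Subgroup.mem_center_iff.mp hσx (σ a)
      rw [← hc]; group) γ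
  calc γ * x = (x * γ * x⁻¹) * x := by rw [← key]
    _ = x * γ := by group

theorem stem_card_le5 {Γ : Type u} {Q : Type v} [Group Γ] [Group Q] [Finite Γ] [Finite Q]
    (hΓ : commutator Γ = ⊤) (σ : Γ →* Q) (hsurj : Function.Surjective σ)
    (hcen : σ.ker ≤ Subgroup.center Γ) :
    Nat.card Γ ≤ Nat.card Q ^ (Nat.card Q * (Nat.card Q * Nat.card Q) + 1) := by
  have hN : 0 < Nat.card Q := Nat.card_pos
  have h1 := Subgroup.card_commutator_dvd_index_center_pow Γ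
  rw [hΓ, Subgroup.card_top] at h1
  have hidx : (Subgroup.center Γ).index ∣ Nat.card Q := by
    have := Subgroup.index_dvd_of_le hcen
    rwa [Subgroup.index_ker, MonoidHom.range_eq_top.mpr hsurj, Subgroup.card_top] at this
  have hidx_le : (Subgroup.center Γ).index ≤ Nat.card Q := Nat.le_of_dvd hN hidx
  have hidx_pos : 0 < (Subgroup.center Γ).index :=
    Nat.pos_of_ne_zero Subgroup.index_ne_zero_of_finite
  obtain ⟨s, hs⟩ : ∃ s : Q → Γ, ∀ q, σ (s q) = q :=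
    ⟨fun q => (hsurj q).choose, fun q => (hsurj q).choose_spec⟩
  have hcs : ∀ p₁ p₂ : Γ, ⁅p₁, p₂⁆ = ⁅s (σ p₁), s (σ p₂)⁆ := fun p₁ p₂ =>
    comm_congr_central5 σ hcen p₁ (s (σ p₁)) p₂ (s (σ p₂)) (hs _).symm (hs _).symm
  have hnc : Nat.card (commutatorSet Γ) ≤ Nat.card Q * Nat.card Q := by
    rw [← Nat.card_prod]
    apply Nat.card_le_card_of_surjective
      (fun qq : Q × Q => (⟨⁅s qq.1, s qq.2⁆, ⟨s qq.1, s qq.2, rfl⟩⟩ : commutatorSet Γ))
    rintro ⟨_, p₁, p₂, rfl⟩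
    exact ⟨(σ p₁, σ p₂), Subtype.ext (hcs p₁ p₂).symm⟩
  have hpos : 0 < (Subgroup.center Γ).index
      ^ ((Subgroup.center Γ).index * Nat.card (commutatorSet Γ) + 1) := pow_pos hidx_pos _
  calc Nat.card Γ ≤ (Subgroup.center Γ).index
        ^ ((Subgroup.center Γ).index * Nat.card (commutatorSet Γ) + 1) := Nat.le_of_dvd hpos h1
    _ ≤ Nat.card Q ^ ((Subgroup.center Γ).index * Nat.card (commutatorSet Γ) + 1) :=
        Nat.pow_le_pow_left hidx_le _
    _ ≤ Nat.card Q ^ (Nat.card Q * (Nat.card Q * Nat.card Q) + 1) :=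
        Nat.pow_le_pow_right hN (Nat.succ_le_succ (Nat.mul_le_mul hidx_le hnc))

theorem exists_universal_cover5 {Q : Type u} [Group Q] [Finite Q] (hQ : Group.IsPerfect Q) :
    ∃ (G : Type u) (_ : Group G) (_ : Finite G) (π : G →* Q), Group.IsPerfect G ∧
      Function.Surjective π ∧ π.ker ≤ Subgroup.center G ∧
      ∀ (X : Type u) [Group X] (ξ : X →* Q), Function.Surjective ξ →
        ξ.ker ≤ Subgroup.center X → ∃! η : G →* X, ξ.comp η = π := by
  classical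
  have hQ' : commutator Q = ⊤ := hQ.commutator_eq_top
  let B := Nat.card Q ^ (Nat.card Q * (Nat.card Q * Nat.card Q) + 1)
  let P : ℕ → Prop := fun n => ∃ (Γ : Type u) (_ : Group Γ) (_ : Finite Γ) (σ : Γ →* Q),
    Cfsg.IsStemExtension σ ∧ Nat.card Γ = n
  have hPB : ∀ n, P n → n ≤ B := by
    rintro n ⟨Γ, _, _, σ, hσ, rfl⟩
    exact stem_card_le5 (perfect_of_stem5 hQ' σ hσ) σ hσ.1 hσ.2.1
  have hP0 : P (Nat.card Q) := by
    refine ⟨Q, inferInstance, inferInstance, MonoidHom.id Q,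
      ⟨Function.surjective_id, ?_, ?_⟩, rfl⟩
    · rw [MonoidHom.ker_id]; exact bot_le
    · rw [MonoidHom.ker_id]; exact bot_le
  have hspec : P (Nat.findGreatest P B) := Nat.findGreatest_spec (hPB _ hP0) hP0
  obtain ⟨Γ₀, _, _, σ₀, hσ₀, hcard₀⟩ := hspec
  have hΓ₀ : commutator Γ₀ = ⊤ := perfect_of_stem5 hQ' σ₀ hσ₀
  have hM : Cfsg.HasCyclicSchurMultiplier Γ₀ 1 := by
    apply hasCyclicSchurMultiplier_one_of5
    intro Γ₁ _ _ τ hτ z hz
    have hΓ₁ : commutator Γ₁ = ⊤ := perfect_of_stem5 hΓ₀ τ hτ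
    have hstem : Cfsg.IsStemExtension (σ₀.comp τ) := by
      refine ⟨hσ₀.1.comp hτ.1, ?_, ?_⟩
      · intro x hx
        apply central_of_map_central5 hΓ₁ τ hτ.2.1 x
        exact hσ₀.2.1 (MonoidHom.mem_ker.mpr (MonoidHom.mem_ker.mp hx))
      · intro x _
        rw [hΓ₁]; exact Subgroup.mem_top _
    have hP1 : P (Nat.card Γ₁) := ⟨Γ₁, inferInstance, inferInstance, σ₀.comp τ, hstem, rfl⟩
    have hle : Nat.card Γ₁ ≤ Nat.card Γ₀ := by
      rw [hcard₀]
      exact Nat.le_findGreatest (hPB _ hP1) hP1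
    have h1 := Subgroup.card_mul_index τ.ker
    rw [Subgroup.index_ker, MonoidHom.range_eq_top.mpr hτ.1, Subgroup.card_top] at h1
    have hpos : 0 < Nat.card Γ₀ := Nat.card_pos
    have hk : Nat.card τ.ker ≤ 1 :=
      Nat.le_of_mul_le_mul_right (by rw [h1, one_mul]; exact hle) hpos
    have hss : Subsingleton τ.ker := Finite.card_le_one_iff_subsingleton.mp hk
    have : (⟨z, hz⟩ : τ.ker) = 1 := Subsingleton.elim _ _
    exact congrArg Subtype.val this
  refine ⟨Γ₀, inferInstance, inferInstance, σ₀, ⟨hΓ₀⟩, hσ₀.1, hσ₀.2.1, ?_⟩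
  intro X _ ξ hξ hξk
  obtain ⟨η, hη⟩ := perfect_universal_of5 hΓ₀ σ₀ hM X ξ hξ hξk
  refine ⟨η, hη, ?_⟩
  intro η' hη'
  have hη'' : ξ.comp η' = σ₀ := hη'
  ext g
  exact quot_hom_trivial5 hΓ₀ η' η (by
    intro a
    apply hξk
    rw [MonoidHom.mem_ker, map_mul, map_inv]
    have e1 : ξ (η' a) = σ₀ a := congrArg (fun f : Γ₀ →* Q => f a) hη''
    have e2 : ξ (η a) = σ₀ a := congrArg (fun f : Γ₀ →* Q => f a) hη
    rw [e1, e2]; group) g

end Cfsg.Agent.Lib.Helper5
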