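import Mathlib
import Cfsg.Agent.Lib.Helper5.PGroupBasics

set_option autoImplicit false

namespace Cfsg.Agent.Lib.Helper5

theorem conj_inv_pow5 {G : Type*} [Group G] (x y : G) (j : ℕ) :
    x⁻¹ * y ^ j * x = (x⁻¹ * y * x) ^ j := by
  have h := map_pow (MulAut.conj x⁻¹) y j
  simpa [MulAut.conj_apply] using h

theorem conj_inv_zpow5 {G : Type*} [Group G] (x y : G) (j : ℤ) :
    x⁻¹ * y ^ j * x = (x⁻¹ * y * x) ^ j := by
  have h := map_zpow (MulAut.conj x⁻¹) y j
  simpa [MulAut.conj_apply] using h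

theorem zgroup_pres_main5 {G : Type*} [Group G] [Finite G]
    (hZ : ∀ (p : ℕ) [Fact p.Prime] (P : Sylow p G), IsCyclic (P : Subgroup G)) :
    ∃ (x y : G) (n m r : ℕ), Subgroup.closure {x, y} = ⊤ ∧ orderOf x = n ∧ orderOf y = m ∧
      x⁻¹ * y * x = y ^ r ∧ Nat.Coprime (r - 1) m ∧ Nat.Coprime n m ∧ 1 ≤ r ∧ r ^ n % m = 1 % m := by
  haveI : IsZGroup G := ⟨fun p hp P => by haveI : Fact p.Prime := ⟨hp⟩; exact hZ p P⟩
  have hCcyc : IsCyclic (commutator G) := IsZGroup.isCyclic_commutator G
  obtain ⟨⟨y, hyC⟩, hygen⟩ := hCcyc.exists_generator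
  have hCy : commutator G = Subgroup.zpowers y := by
    ext g
    constructor
    · intro hg
      obtain ⟨k, hk⟩ := Subgroup.mem_zpowers_iff.mp (hygen ⟨g, hg⟩)
      rw [Subgroup.mem_zpowers_iff]
      refine ⟨k, ?_⟩
      have h1 := congrArg Subtype.val hk
      simpa using h1
    · intro hg
      obtain ⟨k, rfl⟩ := Subgroup.mem_zpowers_iff.mp hg
      exact zpow_mem hyC k
  have hcop := IsZGroup.coprime_commutator_index G
  obtain ⟨H, hH⟩ := Subgroup.exists_right_complement'_of_coprime hcop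
  have hdisj : commutator G ⊓ H = ⊥ := disjoint_iff.mp hH.disjoint
  haveI hHcyc : IsCyclic H := by
    apply isCyclic_of_injective ((Abelianization.of (G := G)).comp H.subtype)
    rw [injective_iff_map_eq_one]
    intro a ha
    have h1 : (a : G) ∈ (Abelianization.of (G := G)).ker := ha
    rw [Abelianization.ker_of] at h1
    have h2 : (a : G) ∈ commutator G ⊓ H := ⟨h1, a.2⟩
    rw [hdisj, Subgroup.mem_bot] at h2
    exact Subtype.ext h2
  obtain ⟨⟨x, hxH⟩, hxgen⟩ := hHcyc.exists_generator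
  have hHx : H = Subgroup.zpowers x := by
    ext g
    constructor
    · intro hg
      obtain ⟨k, hk⟩ := Subgroup.mem_zpowers_iff.mp (hxgen ⟨g, hg⟩)
      rw [Subgroup.mem_zpowers_iff]
      refine ⟨k, ?_⟩
      have h1 := congrArg Subtype.val hk
      simpa using h1
    · intro hg
      obtain ⟨k, rfl⟩ := Subgroup.mem_zpowers_iff.mp hg
      exact zpow_mem hxH k
  have hm : Nat.card (commutator G) = orderOf y := by rw [hCy, Nat.card_zpowers]
  have hn : Nat.card H = orderOf x := by rw [hHx, Nat.card_zpowers]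
  have hmpos : 0 < orderOf y := orderOf_pos y
  have hcopnm : Nat.Coprime (orderOf x) (orderOf y) := by
    have h1 := hH.card_mul_card
    have h2 := Subgroup.card_mul_index (commutator G)
    have h3 : (commutator G).index = Nat.card H := by
      have hpos : 0 < Nat.card (commutator G) := Nat.card_pos
      exact Nat.eq_of_mul_eq_mul_left hpos (h2.trans h1.symm)
    rw [h3, hm, hn] at hcop
    exact hcop.symm
  have hcl : Subgroup.closure ({x, y} : Set G) = ⊤ := by
    rw [eq_top_iff, ← hH.sup_eq_top]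
    apply sup_le
    · rw [hCy, Subgroup.zpowers_le]
      exact Subgroup.subset_closure (by simp)
    · rw [hHx, Subgroup.zpowers_le]
      exact Subgroup.subset_closure (by simp)
  have hconjC : x⁻¹ * y * x ∈ Subgroup.zpowers y := by
    rw [← hCy]
    have h1 := (inferInstance : (commutator G).Normal).conj_mem y hyC x⁻¹
    simpa using h1
  have hfin : IsOfFinOrder y := isOfFinOrder_of_finite y
  rw [← hfin.mem_powers_iff_mem_zpowers, Submonoid.mem_powers_iff] at hconjC
  obtain ⟨r₀, hr₀⟩ := hconjC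
  have hrel : x⁻¹ * y * x = y ^ (r₀ + orderOf y) := by
    rw [pow_add, pow_orderOf_eq_one, mul_one, hr₀]
  obtain ⟨r, hrdef⟩ : ∃ r, r = r₀ + orderOf y := ⟨_, rfl⟩
  rw [← hrdef] at hrel
  have hr1 : 1 ≤ r := by omega
  have hpowconj : ∀ k : ℕ, (x ^ k)⁻¹ * y * x ^ k = y ^ (r ^ k) := by
    intro k
    induction k with
    | zero => simp
    | succ k ih =>
      have e1 : (x ^ (k + 1))⁻¹ * y * x ^ (k + 1) = x⁻¹ * ((x ^ k)⁻¹ * y * x ^ k) * x := by
        rw [pow_succ]; group
      rw [e1, ih, conj_inv_pow5, hrel, ← pow_mul, pow_succ']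
  have hrn : r ^ orderOf x % orderOf y = 1 % orderOf y := by
    have h1 := hpowconj (orderOf x)
    rw [pow_orderOf_eq_one, inv_one, one_mul, mul_one] at h1
    have h2 : y ^ (r ^ orderOf x) = y ^ 1 := by rw [pow_one]; exact h1.symm
    rw [pow_eq_pow_iff_modEq] at h2
    exact h2
  -- coprimality of r - 1 and m
  have hK_le : Subgroup.zpowers (y ^ (r - 1)) ≤ Subgroup.zpowers y := by
    rw [Subgroup.zpowers_le]
    exact pow_mem (Subgroup.mem_zpowers y) _
  have hconjK : ∀ a ∈ Subgroup.zpowers y, x⁻¹ * a * x = a ^ r := by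
    intro a ha
    obtain ⟨k, rfl⟩ := Subgroup.mem_zpowers_iff.mp ha
    rw [conj_inv_zpow5, hrel, ← zpow_natCast, ← zpow_mul, mul_comm, zpow_mul, zpow_natCast]
  have hxinvN : x⁻¹ ∈ Subgroup.normalizer ((Subgroup.zpowers (y ^ (r - 1)) : Subgroup G) : Set G) := by
    apply mem_normalizer_of_conj_mem5
    intro a ha
    rw [inv_inv, hconjK a (hK_le ha)]
    exact pow_mem ha r
  have hxN : x ∈ Subgroup.normalizer ((Subgroup.zpowers (y ^ (r - 1)) : Subgroup G) : Set G) := by
    have := inv_mem hxinvN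
    rwa [inv_inv] at this
  have hyN : y ∈ Subgroup.normalizer ((Subgroup.zpowers (y ^ (r - 1)) : Subgroup G) : Set G) := by
    apply mem_normalizer_of_conj_mem5
    intro a ha
    obtain ⟨k, hk⟩ := Subgroup.mem_zpowers_iff.mp (hK_le ha)
    have h1 : y * a * y⁻¹ = a := by rw [← hk]; group
    rw [h1]; exact ha
  have hNtop : Subgroup.normalizer ((Subgroup.zpowers (y ^ (r - 1)) : Subgroup G) : Set G) = ⊤ := by
    rw [eq_top_iff, ← hcl, Subgroup.closure_le]
    intro g hg
    rcases hg with rfl | hg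
    · exact hxN
    · rw [Set.mem_singleton_iff] at hg
      rw [hg]; exact hyN
  haveI hKn : (Subgroup.zpowers (y ^ (r - 1))).Normal := Subgroup.normalizer_eq_top_iff.mp hNtop
  have hyr : y ^ r = y * y ^ (r - 1) := by
    rw [← pow_succ']
    congr 1
    omega
  have hxy : Commute (QuotientGroup.mk' (Subgroup.zpowers (y ^ (r - 1))) x)
      (QuotientGroup.mk' (Subgroup.zpowers (y ^ (r - 1))) y) := by
    have h1 : QuotientGroup.mk' (Subgroup.zpowers (y ^ (r - 1))) (x⁻¹ * y * x) =
        QuotientGroup.mk' (Subgroup.zpowers (y ^ (r - 1))) y := by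
      rw [hrel, hyr, map_mul]
      have h2 : QuotientGroup.mk' (Subgroup.zpowers (y ^ (r - 1))) (y ^ (r - 1)) = 1 := by
        rw [QuotientGroup.mk'_apply, QuotientGroup.eq_one_iff]
        exact Subgroup.mem_zpowers _
      rw [h2, mul_one]
    rw [map_mul, map_mul, map_inv] at h1
    show _ * _ = _ * _
    have h3 := congrArg (fun t => QuotientGroup.mk' (Subgroup.zpowers (y ^ (r - 1))) x * t) h1
    simp only [mul_assoc, mul_inv_cancel_left] at h3
    exact h3.symm
  have hclQ : Subgroup.closure ({QuotientGroup.mk' (Subgroup.zpowers (y ^ (r - 1))) x,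
      QuotientGroup.mk' (Subgroup.zpowers (y ^ (r - 1))) y} : Set (G ⧸ Subgroup.zpowers (y ^ (r - 1)))) = ⊤ := by
    have h1 := MonoidHom.map_closure (QuotientGroup.mk' (Subgroup.zpowers (y ^ (r - 1)))) ({x, y} : Set G)
    rw [hcl, Subgroup.map_top_of_surjective _ (QuotientGroup.mk'_surjective _), Set.image_pair] at h1
    exact h1.symm
  have hc1 : ∀ g : G ⧸ Subgroup.zpowers (y ^ (r - 1)),
      Commute g (QuotientGroup.mk' (Subgroup.zpowers (y ^ (r - 1))) x) ∧
      Commute g (QuotientGroup.mk' (Subgroup.zpowers (y ^ (r - 1))) y) := by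
    intro g
    have hg : g ∈ Subgroup.closure ({QuotientGroup.mk' (Subgroup.zpowers (y ^ (r - 1))) x,
      QuotientGroup.mk' (Subgroup.zpowers (y ^ (r - 1))) y} : Set (G ⧸ Subgroup.zpowers (y ^ (r - 1)))) := by
      rw [hclQ]; trivial
    refine Subgroup.closure_induction (p := fun g _ =>
      Commute g (QuotientGroup.mk' (Subgroup.zpowers (y ^ (r - 1))) x) ∧
      Commute g (QuotientGroup.mk' (Subgroup.zpowers (y ^ (r - 1))) y)) ?_ ?_ ?_ ?_ hg
    · intro g hg
      rcases hg with rfl | hg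
      · exact ⟨Commute.refl _, hxy⟩
      · rw [Set.mem_singleton_iff] at hg
        rw [hg]
        exact ⟨hxy.symm, Commute.refl _⟩
    · exact ⟨Commute.one_left _, Commute.one_left _⟩
    · intro a b _ _ ha hb
      exact ⟨ha.1.mul_left hb.1, ha.2.mul_left hb.2⟩
    · intro a _ ha
      exact ⟨ha.1.inv_left, ha.2.inv_left⟩
  have hc2 : ∀ g h : G ⧸ Subgroup.zpowers (y ^ (r - 1)), Commute g h := by
    intro g h
    have hh : h ∈ Subgroup.closure ({QuotientGroup.mk' (Subgroup.zpowers (y ^ (r - 1))) x,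
      QuotientGroup.mk' (Subgroup.zpowers (y ^ (r - 1))) y} : Set (G ⧸ Subgroup.zpowers (y ^ (r - 1)))) := by
      rw [hclQ]; trivial
    refine Subgroup.closure_induction (p := fun h _ => Commute g h) ?_ ?_ ?_ ?_ hh
    · intro h hh
      rcases hh with rfl | hh
      · exact (hc1 g).1
      · rw [Set.mem_singleton_iff] at hh
        rw [hh]
        exact (hc1 g).2
    · exact Commute.one_right _
    · intro a b _ _ ha hb
      exact ha.mul_right hb
    · intro a _ ha
      exact ha.inv_right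
  have hcommK : commutator G ≤ Subgroup.zpowers (y ^ (r - 1)) := by
    rw [commutator_def, Subgroup.commutator_le]
    intro a _ b _
    rw [← QuotientGroup.eq_one_iff (N := Subgroup.zpowers (y ^ (r - 1))), commutatorElement_def]
    have h1 := hc2 (QuotientGroup.mk a) (QuotientGroup.mk b)
    rw [QuotientGroup.mk_mul, QuotientGroup.mk_mul, QuotientGroup.mk_mul, QuotientGroup.mk_inv,
      QuotientGroup.mk_inv, h1.eq, mul_inv_cancel_right, mul_inv_cancel]
  have hcard : orderOf y ≤ orderOf y / Nat.gcd (orderOf y) (r - 1) := by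
    have h1 := Subgroup.card_le_of_le hcommK
    rw [hm, Nat.card_zpowers, orderOf_pow] at h1
    exact h1
  have hgcd : Nat.gcd (orderOf y) (r - 1) = 1 := by
    by_contra hne
    have hgpos : 0 < Nat.gcd (orderOf y) (r - 1) := Nat.gcd_pos_of_pos_left _ hmpos
    have h2 : 1 < Nat.gcd (orderOf y) (r - 1) := by omega
    have h3 := Nat.div_lt_self hmpos h2
    omega
  refine ⟨x, y, orderOf x, orderOf y, r, hcl, rfl, rfl, hrel, ?_, hcopnm, hr1, hrn⟩
  exact Nat.Coprime.symm hgcd

end Cfsg.Agent.Lib.Helper5
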